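import Cfsg.Agent.H28.JkDefs

/-!
# JK-TI (piece of helper28's JZ-KILL sub-project, S2951 / S2952)

If every element of `V = Ω₁Z(O₂(L))` is `L`-conjugate into `C(J)` and every 2-local over `J` lies in
the self-normalizing 2-local `L`, then `C_G(u) ≤ L` for `u ∈ V#` and `V` is TI modulo `L`.
-/

set_option autoImplicit false
open Cfsg

namespace Cfsg.Agent.H44.Jk

open Cfsg.Agent.H28.Jk

universe u

/-- Elements of `Ω₁Z(X)` are central elements of `X` of square one. -/
theorem omegaCenterOf_spec44 {G : Type u} [Group G] (X : Subgroup G) (v : G)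
    (hv : v ∈ omegaCenterOf X) :
    (v ∈ X ⊓ Subgroup.centralizer (X : Set G)) ∧ v * v = 1 := by
  unfold omegaCenterOf omegaOne at hv
  induction hv using Subgroup.closure_induction with
  | mem x hx => exact ⟨hx.1, by have h2 := hx.2; rwa [pow_two] at h2⟩
  | one => exact ⟨one_mem _, by simp⟩
  | mul x y _ _ hx hy =>
    refine ⟨mul_mem hx.1 hy.1, ?_⟩
    have hc : x * y = y * x := Subgroup.mem_centralizer_iff.mp hy.1.2 x hx.1.1
    calc x * y * (x * y) = x * (y * x) * y := by group
      _ = x * (x * y) * y := by rw [hc]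
      _ = (x * x) * (y * y) := by group
      _ = 1 := by rw [hx.2, hy.2, one_mul]
  | inv x _ hx =>
    refine ⟨inv_mem hx.1, ?_⟩
    have h1 : x⁻¹ * x⁻¹ = (x * x)⁻¹ := by group
    rw [h1, hx.2, inv_one]

/-- An element commuting with `a` normalizes `⟨a⟩`. -/
theorem comm_mem_normalizer_zpowers44 {G : Type u} [Group G] (x a : G) (h : x * a = a * x) :
    x ∈ Subgroup.normalizer ((Subgroup.zpowers a : Subgroup G) : Set G) := by
  have key : ∀ y ∈ Subgroup.zpowers a, x * y * x⁻¹ = y := by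
    intro y hy
    obtain ⟨k, rfl⟩ := Subgroup.mem_zpowers_iff.mp hy
    have hc : Commute x (a ^ k) := (show Commute x a from h).zpow_right k
    rw [hc.eq]; group
  rw [Subgroup.mem_normalizer_iff]
  intro y
  constructor
  · intro hy
    have hy' : y ∈ Subgroup.zpowers a := hy
    rw [key y hy']; exact hy
  · intro hy
    have hy' : x * y * x⁻¹ ∈ Subgroup.zpowers a := hy
    have hz := key _ hy'
    have h2 : y = x * y * x⁻¹ := by
      have h3 : x⁻¹ * (x * (x * y * x⁻¹) * x⁻¹) * x = x⁻¹ * (x * y * x⁻¹) * x := by rw [hz]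
      have e1 : x⁻¹ * (x * (x * y * x⁻¹) * x⁻¹) * x = x * y * x⁻¹ := by group
      have e2 : x⁻¹ * (x * y * x⁻¹) * x = y := by group
      rw [e1, e2] at h3; exact h3.symm
    have : y ∈ Subgroup.zpowers a := by rw [h2]; exact hy'
    exact this

/-- A conjugate of a 2-local subgroup is a 2-local subgroup. -/
theorem isTwoLocal_conj44 {G : Type u} [Group G] {L : Subgroup G} (h : IsTwoLocal L) (g : G) :
    IsTwoLocal (L.map (MulAut.conj g).toMonoidHom) := by
  obtain ⟨P, hP, hP1, rfl⟩ := h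
  refine ⟨P.map (MulAut.conj g).toMonoidHom, hP.map _, ?_, ?_⟩
  · intro hb
    apply hP1
    exact (Subgroup.map_eq_bot_iff_of_injective P (MulAut.conj g).injective).mp hb
  · exact Subgroup.map_equiv_normalizer_eq P (MulAut.conj g)

/-- **JK-TI.** -/
theorem kti : StKTI.{u} := by
  intro G _ _ J L hL hmax hNL hconj
  have key : ∀ u ∈ VV L, u ≠ 1 → Subgroup.centralizer ({u} : Set G) ≤ L := by
    intro u hu hu1
    obtain ⟨l, hl, hlu⟩ := hconj u hu
    have hu'1 : l * u * l⁻¹ ≠ 1 := by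
      intro h
      apply hu1
      have h2 : u = l⁻¹ * (l * u * l⁻¹) * l := by group
      rw [h2, h]; group
    have hu'2 : (l * u * l⁻¹) ^ 2 = 1 := by
      have h2 := (omegaCenterOf_spec44 _ u hu).2
      calc (l * u * l⁻¹) ^ 2 = l * (u * u) * l⁻¹ := by rw [pow_two]; group
        _ = 1 := by rw [h2]; group
    have hX : IsTwoLocal
        (Subgroup.normalizer ((Subgroup.zpowers (l * u * l⁻¹) : Subgroup G) : Set G)) := by
      refine ⟨Subgroup.zpowers (l * u * l⁻¹), ?_, ?_, rfl⟩
      · have hord : orderOf (l * u * l⁻¹) = 2 := orderOf_eq_prime hu'2 hu'1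
        have hcard : Nat.card ↥(Subgroup.zpowers (l * u * l⁻¹)) = 2 ^ 1 := by
          rw [Nat.card_zpowers, hord]; norm_num
        exact IsPGroup.of_card hcard
      · intro h
        apply hu'1
        have h2 : l * u * l⁻¹ ∈ (⊥ : Subgroup G) := h ▸ Subgroup.mem_zpowers (l * u * l⁻¹)
        simpa using h2
    have hJX : J ≤ Subgroup.normalizer
        ((Subgroup.zpowers (l * u * l⁻¹) : Subgroup G) : Set G) := by
      intro x hx
      exact comm_mem_normalizer_zpowers44 x _ (Subgroup.mem_centralizer_iff.mp hlu x hx)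
    have hXL := hmax _ hX hJX
    intro c hc
    have hcu : u * c = c * u := Subgroup.mem_centralizer_iff.mp hc u (Set.mem_singleton u)
    have h1 : l * c * l⁻¹ ∈ Subgroup.normalizer
        ((Subgroup.zpowers (l * u * l⁻¹) : Subgroup G) : Set G) := by
      apply comm_mem_normalizer_zpowers44
      calc l * c * l⁻¹ * (l * u * l⁻¹) = l * (c * u) * l⁻¹ := by group
        _ = l * (u * c) * l⁻¹ := by rw [hcu]
        _ = l * u * l⁻¹ * (l * c * l⁻¹) := by group
    have h2 := hXL h1
    have h3 : c = l⁻¹ * (l * c * l⁻¹) * l := by group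
    rw [h3]; exact mul_mem (mul_mem (inv_mem hl) h2) hl
  refine ⟨key, ?_⟩
  intro g hg
  obtain ⟨⟨x, hx⟩, hx1⟩ := (Subgroup.ne_bot_iff_exists_ne_one).mp hg
  have hx1' : x ≠ 1 := fun h => hx1 (Subtype.ext h)
  obtain ⟨hxV, hxg⟩ := Subgroup.mem_inf.mp hx
  obtain ⟨u, hu, hux⟩ := Subgroup.mem_map.mp hxg
  have hux' : g * u * g⁻¹ = x := hux
  have hu1 : u ≠ 1 := by
    intro h
    apply hx1'
    rw [← hux', h]; group
  obtain ⟨l, hl, hlx⟩ := hconj x hxV
  have hCu := key u hu hu1
  -- J ≤ L^(l g)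
  have hJ : J ≤ L.map (MulAut.conj (l * g)).toMonoidHom := by
    intro y hy
    have hyc : y * (l * x * l⁻¹) = l * x * l⁻¹ * y := Subgroup.mem_centralizer_iff.mp hlx y hy
    have hmem : (l * g)⁻¹ * y * (l * g) ∈ L := by
      apply hCu
      rw [Subgroup.mem_centralizer_iff]
      intro w hw
      rw [Set.mem_singleton_iff] at hw
      subst hw
      have e1 : w = (l * g)⁻¹ * (l * x * l⁻¹) * (l * g) := by
        rw [← hux']; group
      calc w * ((l * g)⁻¹ * y * (l * g))
          = (l * g)⁻¹ * (l * x * l⁻¹) * (l * g) * ((l * g)⁻¹ * y * (l * g)) := by rw [← e1]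
        _ = (l * g)⁻¹ * ((l * x * l⁻¹) * y) * (l * g) := by group
        _ = (l * g)⁻¹ * (y * (l * x * l⁻¹)) * (l * g) := by rw [hyc]
        _ = (l * g)⁻¹ * y * (l * g) * ((l * g)⁻¹ * (l * x * l⁻¹) * (l * g)) := by group
        _ = (l * g)⁻¹ * y * (l * g) * w := by rw [← e1]
    refine Subgroup.mem_map.mpr ⟨(l * g)⁻¹ * y * (l * g), hmem, ?_⟩
    show (l * g) * ((l * g)⁻¹ * y * (l * g)) * (l * g)⁻¹ = y
    group
  have hle : L.map (MulAut.conj (l * g)).toMonoidHom ≤ L :=
    hmax _ (isTwoLocal_conj44 hL (l * g)) hJ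
  -- equality by cardinality
  have hcard : Nat.card ↥(L.map (MulAut.conj (l * g)).toMonoidHom) = Nat.card ↥L :=
    Subgroup.card_map_of_injective (MulAut.conj (l * g)).injective
  have heq : L.map (MulAut.conj (l * g)).toMonoidHom = L :=
    Subgroup.eq_of_le_of_card_ge hle (le_of_eq hcard.symm)
  have hlgN : l * g ∈ Subgroup.normalizer (L : Set G) := by
    rw [Subgroup.mem_normalizer_iff]
    intro h
    constructor
    · intro hh
      have : (l * g) * h * (l * g)⁻¹ ∈ L.map (MulAut.conj (l * g)).toMonoidHom :=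
        Subgroup.mem_map.mpr ⟨h, hh, rfl⟩
      rw [heq] at this
      exact this
    · intro hh
      have hh' : (l * g) * h * (l * g)⁻¹ ∈ L := hh
      rw [← heq] at hh'
      obtain ⟨h', hh'L, hh'e⟩ := Subgroup.mem_map.mp hh'
      have he : (l * g) * h' * (l * g)⁻¹ = (l * g) * h * (l * g)⁻¹ := hh'e
      have : h' = h := by
        have h4 : (l * g)⁻¹ * ((l * g) * h' * (l * g)⁻¹) * (l * g)
            = (l * g)⁻¹ * ((l * g) * h * (l * g)⁻¹) * (l * g) := by rw [he]
        have e1 : (l * g)⁻¹ * ((l * g) * h' * (l * g)⁻¹) * (l * g) = h' := by group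
        have e2 : (l * g)⁻¹ * ((l * g) * h * (l * g)⁻¹) * (l * g) = h := by group
        rw [e1, e2] at h4; exact h4
      rw [← this]; exact hh'L
  have hlgL := hNL hlgN
  have : g = l⁻¹ * (l * g) := by group
  rw [this]; exact mul_mem (inv_mem hl) hlgL

example : Cfsg.Agent.H28.Jk.StKTI.{u} := kti

end Cfsg.Agent.H44.Jk
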