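import Mathlib

/-!
# Fourier analysis on a finite abelian group, with characters `C →* ℂˣ` (helper44)

The group is a `Group` with a commutativity hypothesis, so that the results apply to subgroups.
-/

set_option autoImplicit false

namespace Cfsg.Agent.H44

open scoped ComplexConjugate

variable {C : Type*} [Group C] [Finite C]

theorem card_hom_units (hC : ∀ a b : C, a * b = b * a) : Nat.card (C →* ℂˣ) = Nat.card C := by
  letI : CommGroup C := { (inferInstance : Group C) with mul_comm := hC }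
  exact CommGroup.card_monoidHom_of_hasEnoughRootsOfUnity C ℂ

theorem finite_hom_units (hC : ∀ a b : C, a * b = b * a) : Finite (C →* ℂˣ) := by
  apply Nat.finite_of_card_ne_zero
  rw [card_hom_units hC]
  exact Nat.card_pos.ne'

theorem exists_hom_units_ne_one (hC : ∀ a b : C, a * b = b * a) {a : C} (ha : a ≠ 1) :
    ∃ φ : C →* ℂˣ, φ a ≠ 1 := by
  letI : CommGroup C := { (inferInstance : Group C) with mul_comm := hC }
  exact CommGroup.exists_apply_ne_one_of_hasEnoughRootsOfUnity C ℂ ha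

theorem hom_units_norm (θ : C →* ℂˣ) (c : C) : ‖((θ c : ℂˣ) : ℂ)‖ = 1 := by
  have h1 : ((θ c : ℂˣ) : ℂ) ^ orderOf c = 1 := by
    rw [← Units.val_pow_eq_pow_val, ← map_pow, pow_orderOf_eq_one, map_one, Units.val_one]
  exact Complex.norm_eq_one_of_pow_eq_one h1 (orderOf_pos c).ne'

theorem hom_units_conj (θ : C →* ℂˣ) (c : C) :
    conj ((θ c : ℂˣ) : ℂ) = ((θ c⁻¹ : ℂˣ) : ℂ) := by
  rw [map_inv, Units.val_inv_eq_inv_val]
  exact (Complex.inv_eq_conj (hom_units_norm θ c)).symm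

theorem hom_units_mul_conj (θ : C →* ℂˣ) (c : C) :
    ((θ c : ℂˣ) : ℂ) * conj ((θ c : ℂˣ) : ℂ) = 1 := by
  rw [Complex.mul_conj, Complex.normSq_eq_norm_sq, hom_units_norm]
  norm_num

/-- Second orthogonality relation. -/
theorem sum_hom_units_apply (hC : ∀ a b : C, a * b = b * a) [Fintype (C →* ℂˣ)] [DecidableEq C]
    (c : C) :
    ∑ θ : C →* ℂˣ, ((θ c : ℂˣ) : ℂ) = if c = 1 then (Nat.card C : ℂ) else 0 := by
  by_cases hc : c = 1
  · rw [if_pos hc, hc]
    simp only [map_one, Units.val_one, Finset.sum_const, Finset.card_univ, nsmul_eq_mul, mul_one]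
    rw [← Nat.card_eq_fintype_card, card_hom_units hC]
  · rw [if_neg hc]
    obtain ⟨φ, hφ⟩ := exists_hom_units_ne_one hC hc
    have h1 : ∑ θ : C →* ℂˣ, ((θ c : ℂˣ) : ℂ) =
        ((φ c : ℂˣ) : ℂ) * ∑ θ : C →* ℂˣ, ((θ c : ℂˣ) : ℂ) := by
      rw [Finset.mul_sum, ← Equiv.sum_comp (Equiv.mulLeft φ)]
      refine Finset.sum_congr rfl fun θ _ => ?_
      simp [MonoidHom.mul_apply]
    have h2 : (((φ c : ℂˣ) : ℂ) - 1) * ∑ θ : C →* ℂˣ, ((θ c : ℂˣ) : ℂ) = 0 := by
      linear_combination -h1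
    rcases mul_eq_zero.mp h2 with h3 | h3
    · exfalso
      apply hφ
      apply Units.ext
      rw [Units.val_one]
      exact sub_eq_zero.mp h3
    · exact h3

/-- Fourier coefficient of `f` at `θ`. -/
noncomputable def fcoef [Fintype C] (f : C → ℂ) (θ : C →* ℂˣ) : ℂ :=
  (Nat.card C : ℂ)⁻¹ * ∑ x : C, f x * conj ((θ x : ℂˣ) : ℂ)

theorem card_ne_zero_of_finite : (Nat.card C : ℂ) ≠ 0 := by
  have : Nat.card C ≠ 0 := Nat.card_pos.ne'
  exact_mod_cast this

theorem fourier_inversion (hC : ∀ a b : C, a * b = b * a) [Fintype C] [Fintype (C →* ℂˣ)]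
    (f : C → ℂ) (c : C) :
    ∑ θ : C →* ℂˣ, fcoef f θ * ((θ c : ℂˣ) : ℂ) = f c := by
  classical
  unfold fcoef
  have hn := card_ne_zero_of_finite (C := C)
  have h1 : ∀ θ : C →* ℂˣ, (Nat.card C : ℂ)⁻¹ * (∑ x : C, f x * conj ((θ x : ℂˣ) : ℂ)) * ((θ c : ℂˣ) : ℂ) =
      (Nat.card C : ℂ)⁻¹ * ∑ x : C, f x * ((θ (x⁻¹ * c) : ℂˣ) : ℂ) := by
    intro θ
    rw [mul_assoc, Finset.sum_mul]
    congr 1
    refine Finset.sum_congr rfl fun x _ => ?_
    rw [hom_units_conj, map_mul, Units.val_mul]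
    ring
  rw [Finset.sum_congr rfl fun θ _ => h1 θ, ← Finset.mul_sum, Finset.sum_comm]
  have h2 : ∀ x : C, ∑ θ : C →* ℂˣ, f x * ((θ (x⁻¹ * c) : ℂˣ) : ℂ) =
      if x = c then f x * (Nat.card C : ℂ) else 0 := by
    intro x
    rw [← Finset.mul_sum, sum_hom_units_apply hC]
    by_cases hx : x = c
    · rw [if_pos hx, if_pos (by rw [hx, inv_mul_cancel])]
    · rw [if_neg hx, if_neg (fun h => hx (inv_mul_eq_one.mp h)), mul_zero]
  rw [Finset.sum_congr rfl fun x _ => h2 x, Finset.sum_ite_eq' Finset.univ c, if_pos (Finset.mem_univ c)]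
  field_simp

theorem fourier_parseval (hC : ∀ a b : C, a * b = b * a) [Fintype C] [Fintype (C →* ℂˣ)]
    (f : C → ℂ) :
    ∑ θ : C →* ℂˣ, fcoef f θ * conj (fcoef f θ) =
      (Nat.card C : ℂ)⁻¹ * ∑ x : C, f x * conj (f x) := by
  classical
  have hn := card_ne_zero_of_finite (C := C)
  have h1 : ∀ θ : C →* ℂˣ, fcoef f θ * conj (fcoef f θ) =
      (Nat.card C : ℂ)⁻¹ * ∑ y : C, conj (f y) * (fcoef f θ * ((θ y : ℂˣ) : ℂ)) := by
    intro θ
    have hc : conj (fcoef f θ) = (Nat.card C : ℂ)⁻¹ * ∑ y : C, conj (f y) * ((θ y : ℂˣ) : ℂ) := by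
      unfold fcoef
      rw [map_mul, map_inv₀, Complex.conj_natCast, map_sum]
      congr 1
      refine Finset.sum_congr rfl fun y _ => ?_
      rw [map_mul, Complex.conj_conj]
    rw [hc, Finset.mul_sum, Finset.mul_sum, Finset.mul_sum]
    refine Finset.sum_congr rfl fun y _ => ?_
    ring
  rw [Finset.sum_congr rfl fun θ _ => h1 θ, ← Finset.mul_sum, Finset.sum_comm]
  congr 1
  refine Finset.sum_congr rfl fun y _ => ?_
  rw [← Finset.mul_sum, fourier_inversion hC, mul_comm]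

theorem sum_conj_hom_units_of_ne [Fintype C] {θ : C →* ℂˣ} (hθ : θ ≠ 1) :
    ∑ c : C, conj ((θ c : ℂˣ) : ℂ) = 0 := by
  have h : ((Units.coeHom ℂ).comp θ : C →* ℂ) ≠ 1 := by
    intro h
    apply hθ
    ext c
    have := DFunLike.congr_fun h c
    simpa using this
  have h1 := sum_hom_units_eq_zero _ h
  rw [← map_sum]
  have h2 : ∑ c : C, ((θ c : ℂˣ) : ℂ) = 0 := h1
  rw [h2, map_zero]

theorem sum_conj_hom_units_one [Fintype C] :
    ∑ c : C, conj (((1 : C →* ℂˣ) c : ℂˣ) : ℂ) = (Nat.card C : ℂ) := by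
  simp [Nat.card_eq_fintype_card]

end Cfsg.Agent.H44
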