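import Mathlib
import Cfsg.Agent.H91.L34Defs

/-!
# helper44: piece FP (fibre product) of helper91's project S5387
-/

set_option autoImplicit false

namespace Cfsg.Agent.H44.L34

open Subgroup

open scoped commutatorElement

universe u₁ u₂ v

/-- A surjection onto a perfect group maps the commutator subgroup onto it. -/
theorem map_commutator_top {P : Type u₁} {L : Type u₂} [Group P] [Group L] (φ : P →* L)
    (hφ : Function.Surjective φ) (hL : commutator L = ⊤) : (commutator P).map φ = ⊤ := by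
  rw [commutator_def, Subgroup.map_commutator, ← MonoidHom.range_eq_map,
    MonoidHom.range_eq_top.mpr hφ, ← commutator_def, hL]

theorem comm_mul_central_left {P : Type u₁} [Group P] (d z q : P) (hz : z ∈ center P) :
    ⁅d * z, q⁆ = ⁅d, q⁆ := by
  have h := mem_center_iff.mp hz q
  have h2 : z * q * z⁻¹ = q := by rw [← h]; group
  rw [commutatorElement_def, commutatorElement_def, mul_inv_rev]
  calc d * z * q * (z⁻¹ * d⁻¹) * q⁻¹ = d * (z * q * z⁻¹) * d⁻¹ * q⁻¹ := by group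
    _ = d * q * d⁻¹ * q⁻¹ := by rw [h2]

theorem comm_mul_central_right {P : Type u₁} [Group P] (d z q : P) (hz : z ∈ center P) :
    ⁅d, q * z⁆ = ⁅d, q⁆ := by
  have h := mem_center_iff.mp hz d⁻¹
  have h2 : z * d⁻¹ * z⁻¹ = d⁻¹ := by rw [← h]; group
  rw [commutatorElement_def, commutatorElement_def, mul_inv_rev]
  calc d * (q * z) * d⁻¹ * (z⁻¹ * q⁻¹) = d * q * (z * d⁻¹ * z⁻¹) * q⁻¹ := by group
    _ = d * q * d⁻¹ * q⁻¹ := by rw [h2]

/-- If `P = [P,P] · Z(P)` then `[P,P]` is perfect. -/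
theorem perfect_of_central_cover {P : Type u₁} [Group P]
    (h : ∀ p : P, ∃ d ∈ commutator P, ∃ z ∈ center P, p = d * z) :
    commutator ↥(commutator P) = ⊤ := by
  have key : ∀ x ∈ commutator P,
      x ∈ (commutator ↥(commutator P)).map (commutator P).subtype := by
    intro x hx
    have hx' : x ∈ closure (commutatorSet P) := by rw [← commutator_eq_closure]; exact hx
    refine (closure_le _).mpr ?_ hx'
    rintro g ⟨p, q, rfl⟩
    obtain ⟨d, hd, z, hz, rfl⟩ := h p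
    obtain ⟨d', hd', z', hz', rfl⟩ := h q
    refine ⟨⁅⟨d, hd⟩, ⟨d', hd'⟩⁆, commutator_mem_commutator (mem_top _) (mem_top _), ?_⟩
    rw [comm_mul_central_left _ _ _ hz, comm_mul_central_right _ _ _ hz']
    rfl
  rw [eq_top_iff]
  intro x _
  obtain ⟨y, hy, hyx⟩ := key x.1 x.2
  have : y = x := Subtype.ext hyx
  rw [← this]; exact hy

/-- The restriction to the commutator subgroup is bijective as soon as the kernel of the composite
to `G` is small. -/
theorem bij_of_card {P : Type u₁} {L : Type u₂} {G : Type v} [Group P] [Finite P] [Group L]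
    [Finite L] [Group G]
    (φ : P →* L) (hφ : Function.Surjective φ) (hL : commutator L = ⊤)
    (π : L →* G) (hk : π.ker = center L) (hc : Nat.card (center L) = 4)
    (hker : Nat.card ((π.comp (φ.comp (commutator P).subtype)).ker) ≤ 4) :
    Function.Bijective (φ.comp (commutator P).subtype) := by
  have hsurj : Function.Surjective (φ.comp (commutator P).subtype) := by
    intro l
    have : l ∈ (commutator P).map φ := by rw [map_commutator_top φ hφ hL]; exact mem_top _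
    obtain ⟨d, hd, rfl⟩ := this
    exact ⟨⟨d, hd⟩, rfl⟩
  refine ⟨?_, hsurj⟩
  let f : (π.comp (φ.comp (commutator P).subtype)).ker → center L := fun z => ⟨φ z.1.1, by
    rw [← hk, MonoidHom.mem_ker]; exact z.2⟩
  have hf : Function.Surjective f := by
    rintro ⟨c, hcm⟩
    obtain ⟨d, rfl⟩ := hsurj c
    refine ⟨⟨d, ?_⟩, rfl⟩
    rw [MonoidHom.mem_ker]; rw [← hk, MonoidHom.mem_ker] at hcm; exact hcm
  have hfb : Function.Bijective f := hf.bijective_of_nat_card_le (by rw [hc]; exact hker)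
  rw [injective_iff_map_eq_one]
  intro d hd
  have hd' : φ d.1 = 1 := hd
  have hdk : d ∈ (π.comp (φ.comp (commutator P).subtype)).ker := by
    rw [MonoidHom.mem_ker]; show π (φ d.1) = 1; rw [hd', map_one]
  have h1 : f ⟨d, hdk⟩ = f 1 := by
    apply Subtype.ext; show φ d.1 = φ (1 : (commutator P)).1; rw [hd']; simp
  have h2 := hfb.1 h1
  exact congrArg Subtype.val h2

theorem fp : Cfsg.Agent.H91.L34.FpStmt.{u₁, u₂, v} := by
  intro L₁ L₂ _ _ _ _ G _ π₁ π₂ hs₁ hs₂ hk₁ hk₂ hp₁ hp₂ hc₁ hc₂ he₁ he₂ hstar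
  let P : Subgroup (L₁ × L₂) :=
    (π₁.comp (MonoidHom.fst L₁ L₂)).eqLocus (π₂.comp (MonoidHom.snd L₁ L₂))
  have hP : ∀ x : L₁ × L₂, x ∈ P ↔ π₁ x.1 = π₂ x.2 := fun x => Iff.rfl
  let φ₁ : ↥P →* L₁ := (MonoidHom.fst L₁ L₂).comp P.subtype
  let φ₂ : ↥P →* L₂ := (MonoidHom.snd L₁ L₂).comp P.subtype
  have hφ₁ : Function.Surjective φ₁ := by
    intro a
    obtain ⟨b, hb⟩ := hs₂ (π₁ a)
    exact ⟨⟨(a, b), (hP _).mpr hb.symm⟩, rfl⟩
  have hφ₂ : Function.Surjective φ₂ := by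
    intro b
    obtain ⟨a, ha⟩ := hs₁ (π₂ b)
    exact ⟨⟨(a, b), (hP _).mpr ha⟩, rfl⟩
  have hπφ : ∀ x : ↥P, π₁ (φ₁ x) = π₂ (φ₂ x) := fun x => x.2
  have hcen : ∀ x : ↥P, x.1.1 ∈ center L₁ → x.1.2 ∈ center L₂ → x ∈ center ↥P := by
    intro x h1 h2
    rw [mem_center_iff]
    intro g
    apply Subtype.ext
    apply Prod.ext
    · exact mem_center_iff.mp h1 g.1.1
    · exact mem_center_iff.mp h2 g.1.2
  let D : Subgroup ↥P := commutator ↥P
  let ρ : ↥D →* G := π₁.comp (φ₁.comp D.subtype)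
  have hDsurj : Function.Surjective (φ₁.comp D.subtype) := by
    intro l
    have : l ∈ (commutator ↥P).map φ₁ := by
      rw [map_commutator_top φ₁ hφ₁ hp₁]; exact mem_top _
    obtain ⟨d, hd, rfl⟩ := this
    exact ⟨⟨d, hd⟩, rfl⟩
  have hρs : Function.Surjective ρ := hs₁.comp hDsurj
  have hker_cen : ∀ z : ↥D, z ∈ ρ.ker → z.1.1.1 ∈ center L₁ ∧ z.1.1.2 ∈ center L₂ := by
    intro z hz
    have h1 : π₁ z.1.1.1 = 1 := hz
    have h2 : π₂ z.1.1.2 = 1 := by rw [← h1]; exact (z.1.2).symm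
    exact ⟨by rw [← hk₁]; exact h1, by rw [← hk₂]; exact h2⟩
  have hρc : ρ.ker ≤ center ↥D := by
    intro z hz
    obtain ⟨h1, h2⟩ := hker_cen z hz
    rw [mem_center_iff]
    intro g
    apply Subtype.ext
    exact mem_center_iff.mp (hcen z.1 h1 h2) g.1
  have hρe : ∀ z ∈ ρ.ker, z * z = 1 := by
    intro z hz
    obtain ⟨h1, h2⟩ := hker_cen z hz
    apply Subtype.ext; apply Subtype.ext; apply Prod.ext
    · exact he₁ _ h1
    · exact he₂ _ h2
  have hDperf : commutator ↥D = ⊤ := by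
    apply perfect_of_central_cover
    intro p
    obtain ⟨d, hd⟩ := hDsurj (φ₁ p)
    have hd1 : d.1.1.1 = p.1.1 := hd
    refine ⟨d.1, d.2, d.1⁻¹ * p, ?_, by group⟩
    apply hcen
    · have : (d.1⁻¹ * p).1.1 = 1 := by
        show (d.1.1.1)⁻¹ * p.1.1 = 1
        rw [hd1]; group
      rw [this]; exact one_mem _
    · rw [← hk₂, MonoidHom.mem_ker]
      show π₂ ((d.1.1.2)⁻¹ * p.1.2) = 1
      have e1 : π₁ d.1.1.1 = π₂ d.1.1.2 := d.1.2
      have e2 : π₁ p.1.1 = π₂ p.1.2 := p.2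
      rw [map_mul, map_inv, ← e1, ← e2, hd1]
      group
  have hcard : Nat.card ρ.ker ≤ 4 := hstar ρ hρs hρc hρe hDperf
  have hb₁ : Function.Bijective (φ₁.comp D.subtype) :=
    bij_of_card φ₁ hφ₁ hp₁ π₁ hk₁ hc₁ hcard
  have hρ₂ : π₂.comp (φ₂.comp D.subtype) = ρ := by
    ext z; exact (hπφ z.1).symm
  have hb₂ : Function.Bijective (φ₂.comp D.subtype) :=
    bij_of_card φ₂ hφ₂ hp₂ π₂ hk₂ hc₂ (by rw [hρ₂]; exact hcard)
  exact ⟨(MulEquiv.ofBijective _ hb₁).symm.trans (MulEquiv.ofBijective _ hb₂)⟩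

example : Cfsg.Agent.H91.L34.FpStmt.{u₁, u₂, v} := fp

end Cfsg.Agent.H44.L34
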