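import Mathlib
import Cfsg.Agent.H91.L34Defs

/-!
# helper44: piece SB of helper91's project S5387
-/

set_option autoImplicit false

namespace Cfsg.Agent.H44.L34

open Subgroup

open scoped commutatorElement

universe u

/-- Adjoin a central involution to a subgroup. -/
def adj {P : Type u} [Group P] (K : Subgroup P) (c : P) (hc : c ∈ center P) (hc2 : c * c = 1) :
    Subgroup P where
  carrier := {g | g ∈ K ∨ g * c ∈ K}
  one_mem' := Or.inl K.one_mem
  mul_mem' := by
    rintro g h (hg | hg) (hh | hh)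
    · exact Or.inl (K.mul_mem hg hh)
    · right; rw [mul_assoc]; exact K.mul_mem hg hh
    · right
      have : g * h * c = g * c * h := by
        rw [mul_assoc, mul_assoc, mem_center_iff.mp hc h]
      rw [this]; exact K.mul_mem hg hh
    · left
      have : g * h = (g * c) * (h * c) := by
        rw [mul_assoc g c, ← mul_assoc c h c, ← mem_center_iff.mp hc h, mul_assoc h c c, hc2,
          mul_one]
      rw [this]; exact K.mul_mem hg hh
  inv_mem' := by
    rintro g (hg | hg)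
    · exact Or.inl (K.inv_mem hg)
    · right
      have hci : c⁻¹ = c := inv_eq_of_mul_eq_one_right hc2
      have : g⁻¹ * c = (g * c)⁻¹ := by
        rw [mul_inv_rev, hci]; exact (mem_center_iff.mp hc g⁻¹)
      rw [this]; exact K.inv_mem hg

theorem le_adj {P : Type u} [Group P] (K : Subgroup P) (c : P) (hc : c ∈ center P)
    (hc2 : c * c = 1) : K ≤ adj K c hc hc2 := fun _ hg => Or.inl hg

theorem self_mem_adj {P : Type u} [Group P] (K : Subgroup P) (c : P) (hc : c ∈ center P)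
    (hc2 : c * c = 1) : c ∈ adj K c hc hc2 := Or.inr (by rw [hc2]; exact K.one_mem)

theorem adj_card {P : Type u} [Group P] (K : Subgroup P) [Finite K] (c : P) (hc : c ∈ center P)
    (hc2 : c * c = 1) :
    Finite (adj K c hc hc2) ∧ Nat.card (adj K c hc hc2) ≤ 2 * Nat.card K := by
  classical
  let f : adj K c hc hc2 → K × Bool := fun g =>
    if h : g.1 ∈ K then (⟨g.1, h⟩, false) else (⟨g.1 * c, g.2.resolve_left h⟩, true)
  have hf : Function.Injective f := by
    intro g g' hgg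
    by_cases h : g.1 ∈ K <;> by_cases h' : g'.1 ∈ K
    · simp only [f, dif_pos h, dif_pos h', Prod.mk.injEq, Subtype.mk.injEq] at hgg
      exact Subtype.ext hgg.1
    · simp only [f, dif_pos h, dif_neg h', Prod.mk.injEq] at hgg
      exact absurd hgg.2 (by decide)
    · simp only [f, dif_neg h, dif_pos h', Prod.mk.injEq] at hgg
      exact absurd hgg.2 (by decide)
    · simp only [f, dif_neg h, dif_neg h', Prod.mk.injEq, Subtype.mk.injEq] at hgg
      exact Subtype.ext (mul_right_cancel hgg.1)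
  have hfin : Finite (adj K c hc hc2) := Finite.of_injective f hf
  refine ⟨hfin, ?_⟩
  have := Nat.card_le_card_of_injective f hf
  rw [Nat.card_prod] at this
  simpa [mul_comm] using this

/-- Finitely many central involutions lie in a subgroup of order at most `2 ^ n`. -/
theorem exists_small {P : Type u} [Group P] (l : List P)
    (hl : ∀ c ∈ l, c ∈ center P ∧ c * c = 1) :
    ∃ M : Subgroup P, Finite M ∧ Nat.card M ≤ 2 ^ l.length ∧ ∀ c ∈ l, c ∈ M := by
  induction l with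
  | nil =>
    refine ⟨⊥, inferInstance, ?_, by simp⟩
    simp
  | cons c l ih =>
    obtain ⟨M, hM, hcard, hmem⟩ := ih (fun x hx => hl x (List.mem_cons_of_mem _ hx))
    obtain ⟨hc, hc2⟩ := hl c List.mem_cons_self
    obtain ⟨h1, h2⟩ := adj_card M c hc hc2
    refine ⟨adj M c hc hc2, h1, ?_, ?_⟩
    · rw [List.length_cons, pow_succ]
      calc Nat.card (adj M c hc hc2) ≤ 2 * Nat.card M := h2
        _ ≤ 2 * 2 ^ l.length := Nat.mul_le_mul_left 2 hcard
        _ = 2 ^ l.length * 2 := mul_comm _ _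
    · intro x hx
      rcases List.mem_cons.mp hx with rfl | hx
      · exact self_mem_adj M x hc hc2
      · exact le_adj M c hc hc2 (hmem x hx)

theorem gen_le {P : Type u} {Q : Type*} [Group P] [Group Q] (mk : P →* Q) (x : Q)
    (S Z : Subgroup P) (g₁ g₂ : P) (hS : S ≤ closure {g₁, g₂} ⊔ Z)
    (h1 : x * mk g₁ = mk g₁ * x) (h2 : x * mk g₂ = mk g₂ * x)
    (hZ : ∀ z ∈ Z, x * mk z = mk z * x) : ∀ s ∈ S, x * mk s = mk s * x := by
  have key : S ≤ (centralizer {x}).comap mk := by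
    refine hS.trans (sup_le ((closure_le _).mpr ?_) ?_)
    · rintro y (rfl | rfl)
      · show mk y ∈ centralizer {x}
        rw [mem_centralizer_iff]; rintro _ rfl; exact h1
      · show mk y ∈ centralizer {x}
        rw [mem_centralizer_iff]; rintro _ rfl; exact h2
    · intro z hz
      show mk z ∈ centralizer {x}
      rw [mem_centralizer_iff]; rintro _ rfl; exact hZ z hz
  intro s hs
  have := key hs
  rw [mem_comap, mem_centralizer_iff] at this
  exact this x rfl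

theorem sup_comm_le {P : Type u} {Q : Type*} [Group P] [Group Q] (mk : P →* Q) (x : Q)
    (A B : Subgroup P) (hAB : A ⊔ B = ⊤)
    (hA : ∀ a ∈ A, x * mk a = mk a * x) (hB : ∀ b ∈ B, x * mk b = mk b * x) :
    ∀ g : P, x * mk g = mk g * x := by
  have key : A ⊔ B ≤ (centralizer {x}).comap mk := by
    refine sup_le ?_ ?_
    · intro a ha
      show mk a ∈ centralizer {x}
      rw [mem_centralizer_iff]; rintro _ rfl; exact hA a ha
    · intro b hb
      show mk b ∈ centralizer {x}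
      rw [mem_centralizer_iff]; rintro _ rfl; exact hB b hb
  intro g
  have := key (hAB ▸ mem_top g)
  rw [mem_comap, mem_centralizer_iff] at this
  exact this x rfl

theorem sb : Cfsg.Agent.H91.L34.SbStmt.{u} := by
  intro P _ A B hA hB hA2 hB2 hAB a₁ a₂ b₁ b₂ ha₁ ha₂ hb₁ hb₂ hgA hgB
  have comm_of_sq : ∀ x y : P, x * x = 1 → y * y = 1 → (x * y) * (x * y) = 1 →
      x * y = y * x := by
    intro x y hx hy hxy
    have h1 : x⁻¹ = x := inv_eq_of_mul_eq_one_right hx
    have h2 : y⁻¹ = y := inv_eq_of_mul_eq_one_right hy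
    have h3 : (x * y)⁻¹ = x * y := inv_eq_of_mul_eq_one_right hxy
    rw [← h3, mul_inv_rev, h1, h2]
  have hAc : ∀ x ∈ A, ∀ y ∈ A, x * y = y * x := fun x hx y hy =>
    comm_of_sq x y (hA2 x hx) (hA2 y hy) (hA2 _ (A.mul_mem hx hy))
  have hBc : ∀ x ∈ B, ∀ y ∈ B, x * y = y * x := fun x hx y hy =>
    comm_of_sq x y (hB2 x hx) (hB2 y hy) (hB2 _ (B.mul_mem hx hy))
  have hZ : A ⊓ B ≤ center P := by
    intro z hz
    rw [mem_center_iff]
    exact fun g => (sup_comm_le (MonoidHom.id P) z A B hAB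
      (fun a ha => hAc z hz.1 a ha) (fun b hb => hBc z hz.2 b hb) g).symm
  have hcomm : ∀ a ∈ A, ∀ b ∈ B, a * b * a⁻¹ * b⁻¹ ∈ A ⊓ B := by
    intro a ha b hb
    refine ⟨?_, ?_⟩
    · have : a * b * a⁻¹ * b⁻¹ = a * (b * a⁻¹ * b⁻¹) := by group
      rw [this]; exact A.mul_mem ha (hA.conj_mem _ (A.inv_mem ha) b)
    · exact B.mul_mem (hB.conj_mem _ hb a) (B.inv_mem hb)
  obtain ⟨M, hMfin, hMcard, hMmem⟩ := exists_small
    [a₁ * b₁ * a₁⁻¹ * b₁⁻¹, a₁ * b₂ * a₁⁻¹ * b₂⁻¹, a₂ * b₁ * a₂⁻¹ * b₁⁻¹, a₂ * b₂ * a₂⁻¹ * b₂⁻¹]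
    (by
      intro c hc
      simp only [List.mem_cons, List.not_mem_nil, or_false] at hc
      rcases hc with rfl | rfl | rfl | rfl
      · exact ⟨hZ (hcomm _ ha₁ _ hb₁), hA2 _ (hcomm _ ha₁ _ hb₁).1⟩
      · exact ⟨hZ (hcomm _ ha₁ _ hb₂), hA2 _ (hcomm _ ha₁ _ hb₂).1⟩
      · exact ⟨hZ (hcomm _ ha₂ _ hb₁), hA2 _ (hcomm _ ha₂ _ hb₁).1⟩
      · exact ⟨hZ (hcomm _ ha₂ _ hb₂), hA2 _ (hcomm _ ha₂ _ hb₂).1⟩)
  let N : Subgroup P := closure
    {a₁ * b₁ * a₁⁻¹ * b₁⁻¹, a₁ * b₂ * a₁⁻¹ * b₂⁻¹, a₂ * b₁ * a₂⁻¹ * b₁⁻¹, a₂ * b₂ * a₂⁻¹ * b₂⁻¹}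
  have hNM : N ≤ M := by
    refine (closure_le _).mpr ?_
    rintro x (rfl | rfl | rfl | rfl)
    · exact hMmem _ (by simp)
    · exact hMmem _ (by simp)
    · exact hMmem _ (by simp)
    · exact hMmem _ (by simp)
  have hNZ : N ≤ A ⊓ B := by
    refine (closure_le _).mpr ?_
    rintro x (rfl | rfl | rfl | rfl)
    · exact hcomm _ ha₁ _ hb₁
    · exact hcomm _ ha₁ _ hb₂
    · exact hcomm _ ha₂ _ hb₁
    · exact hcomm _ ha₂ _ hb₂
  have hNc : N ≤ center P := hNZ.trans hZ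
  haveI hNn : N.Normal := ⟨fun n hn g => by
    have := mem_center_iff.mp (hNc hn) g
    rw [this, mul_inv_cancel_right]; exact hn⟩
  let mk : P →* P ⧸ N := QuotientGroup.mk' N
  have hmk : ∀ g h : P, g * h * g⁻¹ * h⁻¹ ∈ N → mk g * mk h = mk h * mk g := by
    intro g h hgh
    have h1 : mk (g * h * g⁻¹ * h⁻¹) = 1 := (QuotientGroup.eq_one_iff _).mpr hgh
    rw [map_mul, map_mul, map_mul, map_inv, map_inv] at h1
    have h2 := mul_inv_eq_one.mp h1
    exact mul_inv_eq_iff_eq_mul.mp h2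
  have h11 : mk a₁ * mk b₁ = mk b₁ * mk a₁ := hmk _ _ (subset_closure (by simp))
  have h12 : mk a₁ * mk b₂ = mk b₂ * mk a₁ := hmk _ _ (subset_closure (by simp))
  have h21 : mk a₂ * mk b₁ = mk b₁ * mk a₂ := hmk _ _ (subset_closure (by simp))
  have h22 : mk a₂ * mk b₂ = mk b₂ * mk a₂ := hmk _ _ (subset_closure (by simp))
  have hz : ∀ z ∈ A ⊓ B, ∀ g : P, mk z * mk g = mk g * mk z := by
    intro z hz g
    rw [← map_mul, ← map_mul, mem_center_iff.mp (hZ hz) g]
  have s4a : ∀ b ∈ B, mk a₁ * mk b = mk b * mk a₁ :=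
    gen_le mk (mk a₁) B (A ⊓ B) b₁ b₂ hgB h11 h12 (fun z hz' => (hz z hz' a₁).symm)
  have s4b : ∀ b ∈ B, mk a₂ * mk b = mk b * mk a₂ :=
    gen_le mk (mk a₂) B (A ⊓ B) b₁ b₂ hgB h21 h22 (fun z hz' => (hz z hz' a₂).symm)
  have s5 : ∀ b ∈ B, ∀ a ∈ A, mk b * mk a = mk a * mk b := fun b hb =>
    gen_le mk (mk b) A (A ⊓ B) a₁ a₂ hgA (s4a b hb).symm (s4b b hb).symm
      (fun z hz' => (hz z hz' b).symm)
  have s6 : ∀ a ∈ A, ∀ g : P, mk a * mk g = mk g * mk a := fun a ha =>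
    sup_comm_le mk (mk a) A B hAB
      (fun a' ha' => by rw [← map_mul, ← map_mul, hAc a ha a' ha'])
      (fun b hb => (s5 b hb a ha).symm)
  have s7 : ∀ b ∈ B, ∀ g : P, mk b * mk g = mk g * mk b := fun b hb =>
    sup_comm_le mk (mk b) A B hAB
      (fun a ha => s5 b hb a ha)
      (fun b' hb' => by rw [← map_mul, ← map_mul, hBc b hb b' hb'])
  have s8 : ∀ g h : P, mk g * mk h = mk h * mk g := fun g =>
    sup_comm_le mk (mk g) A B hAB (fun a ha => (s6 a ha g).symm) (fun b hb => (s7 b hb g).symm)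
  have hcN : commutator P ≤ N := by
    rw [commutator_eq_closure]
    refine (closure_le _).mpr ?_
    rintro _ ⟨g, h, rfl⟩
    show ⁅g, h⁆ ∈ N
    rw [← QuotientGroup.eq_one_iff (N := N), commutatorElement_def]
    show mk (g * h * g⁻¹ * h⁻¹) = 1
    rw [map_mul, map_mul, map_mul, map_inv, map_inv, s8 g h]
    group
  haveI : Finite M := hMfin
  calc Nat.card (commutator P) ≤ Nat.card M := Subgroup.card_le_of_le (hcN.trans hNM)
    _ ≤ 2 ^ 4 := hMcard
    _ = 16 := by norm_num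

example : Cfsg.Agent.H91.L34.SbStmt.{u} := sb

end Cfsg.Agent.H44.L34
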