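import Mathlib

/-!
# Indicator sums with two elements; the quadratic character of a cyclic group (helper44)
-/

set_option autoImplicit false

namespace Cfsg.Agent.H44

section Pairs

variable {ι : Type*} [Fintype ι]

theorem card_filter_of_sum_indicator (P : ι → Prop) [DecidablePred P] (m : ℕ)
    (h : ∑ x : ι, (if P x then (1 : ℂ) else 0) = m) : (Finset.univ.filter P).card = m := by
  have h1 : ((Finset.univ.filter P).card : ℂ) = m := by
    rw [Finset.card_filter]; push_cast; exact h
  exact_mod_cast h1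

theorem exists_pair_of_sum_indicator [DecidableEq ι] (P : ι → Prop) [DecidablePred P]
    (h : ∑ x : ι, (if P x then (1 : ℂ) else 0) = 2) : ∃ a b : ι, a ≠ b ∧ P a ∧ P b := by
  have h1 := card_filter_of_sum_indicator P 2 (by rw [h]; norm_num)
  obtain ⟨a, b, hab, hs⟩ := Finset.card_eq_two.mp h1
  have ha : a ∈ Finset.univ.filter P := by rw [hs]; simp
  have hb : b ∈ Finset.univ.filter P := by rw [hs]; simp
  exact ⟨a, b, hab, (Finset.mem_filter.mp ha).2, (Finset.mem_filter.mp hb).2⟩

theorem sum_indicator_eq_pair [DecidableEq ι] (P : ι → Prop) [DecidablePred P]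
    (h : ∑ x : ι, (if P x then (1 : ℂ) else 0) = 2) (a b : ι) (ha : P a) (hb : P b) (hab : a ≠ b)
    (f : ι → ℂ) : ∑ x : ι, (if P x then f x else 0) = f a + f b := by
  have h1 := card_filter_of_sum_indicator P 2 (by rw [h]; norm_num)
  have hsub : ({a, b} : Finset ι) ⊆ Finset.univ.filter P := by
    intro x hx
    rw [Finset.mem_insert, Finset.mem_singleton] at hx
    rcases hx with rfl | rfl
    · exact Finset.mem_filter.mpr ⟨Finset.mem_univ _, ha⟩
    · exact Finset.mem_filter.mpr ⟨Finset.mem_univ _, hb⟩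
  have heq : ({a, b} : Finset ι) = Finset.univ.filter P :=
    Finset.eq_of_subset_of_card_le hsub (by rw [h1, Finset.card_pair hab])
  rw [← Finset.sum_filter, ← heq, Finset.sum_pair hab]

end Pairs

section Quad

variable {C : Type*} [Group C] [Finite C]

theorem quad_hom_sq (θ : C →* ℂˣ) (h1 : θ⁻¹ = θ) (c : C) :
    ((θ c : ℂˣ) : ℂ) = 1 ∨ ((θ c : ℂˣ) : ℂ) = -1 := by
  have h2 : (θ c)⁻¹ = θ c := by
    have := DFunLike.congr_fun h1 c
    rwa [MonoidHom.inv_apply] at this
  have h3 : θ c * θ c = 1 := by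
    nth_rewrite 1 [← h2]
    exact inv_mul_cancel _
  have h4 : ((θ c : ℂˣ) : ℂ) * ((θ c : ℂˣ) : ℂ) = 1 := by
    rw [← Units.val_mul, h3, Units.val_one]
  exact mul_self_eq_one_iff.mp h4

/-- The kernel of a non-trivial character of order two of a cyclic group of order `2N` is the
set of elements `c` with `c ^ N = 1`. -/
theorem quad_hom_apply [IsCyclic C] (θ : C →* ℂˣ) (h1 : θ⁻¹ = θ) (hθ : θ ≠ 1) (N : ℕ)
    (hN : Nat.card C = 2 * N) (c : C) : ((θ c : ℂˣ) : ℂ) = 1 ↔ c ^ N = 1 := by
  classical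
  have : Fintype C := Fintype.ofFinite C
  have hN0 : 0 < N := by
    have : 0 < Nat.card C := Nat.card_pos
    omega
  obtain ⟨c₀, hc₀⟩ : ∃ c₀ : C, ((θ c₀ : ℂˣ) : ℂ) = -1 := by
    by_contra hcon
    push Not at hcon
    apply hθ
    ext x
    rcases quad_hom_sq θ h1 x with h | h
    · simpa using h
    · exact absurd h (hcon x)
  have hker : ∀ x : C, x ∈ θ.ker ↔ ((θ x : ℂˣ) : ℂ) = 1 := by
    intro x
    rw [MonoidHom.mem_ker]
    constructor
    · intro h; rw [h, Units.val_one]
    · intro h; exact Units.ext (by rw [h, Units.val_one])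
  have hidx : θ.ker.index = 2 := by
    rw [Subgroup.index_eq_two_iff]
    refine ⟨c₀, fun b => ?_⟩
    rw [hker, hker, map_mul, Units.val_mul, hc₀]
    rcases quad_hom_sq θ h1 b with h | h
    · right
      rw [h]
      norm_num
    · left
      rw [h]
      norm_num
  have hcardker : Nat.card θ.ker = N := by
    have := Subgroup.card_mul_index θ.ker
    rw [hidx, hN] at this
    omega
  have hsub : (Finset.univ.filter fun x : C => x ∈ θ.ker) ⊆ (Finset.univ.filter fun x : C => x ^ N = 1) := by
    intro x hx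
    rw [Finset.mem_filter] at hx ⊢
    refine ⟨Finset.mem_univ _, ?_⟩
    have h3 : (⟨x, hx.2⟩ : θ.ker) ^ Nat.card θ.ker = 1 := pow_card_eq_one'
    rw [hcardker] at h3
    exact congrArg Subtype.val h3
  have hcard1 : (Finset.univ.filter fun x : C => x ∈ θ.ker).card = N := by
    rw [← hcardker, Nat.card_eq_fintype_card, Fintype.card_subtype]
  have heq := Finset.eq_of_subset_of_card_le hsub
    (by rw [hcard1]; exact IsCyclic.card_pow_eq_one_le hN0)
  rw [← hker]
  constructor
  · intro h
    have : c ∈ (Finset.univ.filter fun x : C => x ∈ θ.ker) := Finset.mem_filter.mpr ⟨Finset.mem_univ _, h⟩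
    rw [heq] at this
    exact (Finset.mem_filter.mp this).2
  · intro h
    have : c ∈ (Finset.univ.filter fun x : C => x ^ N = 1) := Finset.mem_filter.mpr ⟨Finset.mem_univ _, h⟩
    rw [← heq] at this
    exact (Finset.mem_filter.mp this).2

/-- A cyclic group of even order has exactly one character of order two. -/
theorem quad_hom_unique [IsCyclic C] (θ θ' : C →* ℂˣ) (h1 : θ⁻¹ = θ) (h1' : θ'⁻¹ = θ')
    (hθ : θ ≠ 1) (hθ' : θ' ≠ 1) (N : ℕ) (hN : Nat.card C = 2 * N) : θ = θ' := by
  ext c
  have e1 := quad_hom_apply θ h1 hθ N hN c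
  have e2 := quad_hom_apply θ' h1' hθ' N hN c
  rcases quad_hom_sq θ h1 c with h | h <;> rcases quad_hom_sq θ' h1' c with h' | h'
  · rw [h, h']
  · exact absurd (e2.mpr (e1.mp h)) (by rw [h']; norm_num)
  · exact absurd (e1.mpr (e2.mp h')) (by rw [h]; norm_num)
  · rw [h, h']

end Quad

end Cfsg.Agent.H44
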