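import Cfsg.Agent.H44.SL2Sylow
import Cfsg.Agent.H20.PElement

/-!
# The `p`-blocks of SL₂(F) in the defining characteristic `p` odd (helper44)
-/

set_option autoImplicit false

namespace Cfsg.Agent.H44

open Matrix Cfsg
open scoped ComplexConjugate

variable {F : Type*} [Field F] [Fintype F]

/-- The characteristic divides the order of the field. -/
theorem char_dvd_card (p : ℕ) [Fact p.Prime] [CharP F p] : p ∣ Fintype.card F := by
  obtain ⟨n, -, hn⟩ := FiniteField.card F p
  rw [hn]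
  exact dvd_pow_self p n.ne_zero

theorem odd_card_of_char (p : ℕ) [Fact p.Prime] [CharP F p] (hp : p ≠ 2) :
    Odd (Fintype.card F) := by
  obtain ⟨n, -, hn⟩ := FiniteField.card F p
  rw [hn]
  exact Odd.pow ((Fact.out : p.Prime).odd_of_ne_two hp)

/-- The elements of `SL₂(F)`: central, or with centraliser of index divisible by `p`, or `± u`
with `u` of order dividing `p`. -/
theorem sl2_element_cases (p : ℕ) [Fact p.Prime] [CharP F p] (hodd : Odd (Fintype.card F))
    (g : Matrix.SpecialLinearGroup (Fin 2) F) :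
    (p ∣ (Subgroup.centralizer ({g} : Set (Matrix.SpecialLinearGroup (Fin 2) F))).index) ∨
    (∃ u : Matrix.SpecialLinearGroup (Fin 2) F, u ^ p = 1 ∧ (g = u ∨ g = u * -1)) := by
  have hpq := char_dvd_card (F := F) p
  have hp := (Fact.out : p.Prime)
  have hq1 : 1 < Fintype.card F := Fintype.one_lt_card
  by_cases ht : (g.1 0 0 + g.1 1 1) ^ 2 = 4
  · right
    have h4 : (g.1 0 0 + g.1 1 1 - 2) * (g.1 0 0 + g.1 1 1 + 2) = 0 := by linear_combination ht
    rcases mul_eq_zero.mp h4 with h | h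
    · refine ⟨g, Cfsg.Agent.H65.SL2.pow_char_eq_one p g ?_, Or.inl rfl⟩
      unfold Cfsg.Agent.H65.SL2.tr
      linear_combination h
    · refine ⟨-g, Cfsg.Agent.H65.SL2.pow_char_eq_one p (-g) ?_, Or.inr ?_⟩
      · unfold Cfsg.Agent.H65.SL2.tr
        rw [Cfsg.Agent.H65.SL2.neg00, Cfsg.Agent.H65.SL2.neg11]
        linear_combination -h
      · rw [mul_neg, mul_one, neg_neg]
  · left
    have hidx := Subgroup.card_mul_index
      (Subgroup.centralizer ({g} : Set (Matrix.SpecialLinearGroup (Fin 2) F)))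
    rw [card_SL2] at hidx
    have hdvd : p ∣ Nat.card (Subgroup.centralizer ({g} : Set (Matrix.SpecialLinearGroup (Fin 2) F))) *
        (Subgroup.centralizer ({g} : Set (Matrix.SpecialLinearGroup (Fin 2) F))).index := by
      rw [hidx]
      exact Dvd.dvd.mul_right hpq _
    have hcop : Nat.Coprime p
        (Nat.card (Subgroup.centralizer ({g} : Set (Matrix.SpecialLinearGroup (Fin 2) F)))) := by
      rw [Nat.Prime.coprime_iff_not_dvd hp]
      intro hd
      by_cases hell : Elliptic (g : Matrix (Fin 2) (Fin 2) F)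
      · rw [sl2_card_centralizer_elliptic hodd g hell] at hd
        have := (Nat.dvd_add_right hpq).mp hd
        exact hp.one_lt.ne' (Nat.dvd_one.mp this)
      · rw [sl2_card_centralizer_split hodd g ht hell] at hd
        have h1 : p ∣ Fintype.card F - (Fintype.card F - 1) := Nat.dvd_sub hpq hd
        have h3 : Fintype.card F - (Fintype.card F - 1) = 1 := by omega
        rw [h3] at h1
        exact hp.one_lt.ne' (Nat.dvd_one.mp h1)
    exact hcop.dvd_of_dvd_mul_left hdvd

variable [Fintype (Matrix.SpecialLinearGroup (Fin 2) F)]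
  [Fintype (MulChar F ℂ)] [Fintype (Cfsg.IrrCharacter (Matrix.SpecialLinearGroup (Fin 2) F))]
  {α₀ : MulChar F ℂ} {ξ₁ ξ₂ : Matrix.SpecialLinearGroup (Fin 2) F → ℂ}

/-- The degrees of the irreducible characters other than the Steinberg character are prime to
the characteristic. -/
theorem sl2_degree_not_dvd (p : ℕ) [Fact p.Prime] [CharP F p] (hodd : Odd (Fintype.card F))
    (D : QuadDecomp α₀ ξ₁ ξ₂) {χ : Matrix.SpecialLinearGroup (Fin 2) F → ℂ}
    (hirr : Cfsg.IsIrrCharacter (Matrix.SpecialLinearGroup (Fin 2) F) χ)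
    (hne : χ 1 ≠ (Fintype.card F : ℂ)) : ∃ d : ℕ, χ 1 = d ∧ ¬ p ∣ d := by
  have hpq := char_dvd_card (F := F) p
  have hp := (Fact.out : p.Prime)
  have hq1 : 1 < Fintype.card F := Fintype.one_lt_card
  have hp1 : ¬ p ∣ 1 := fun h => hp.one_lt.ne' (Nat.dvd_one.mp h)
  have hdeg : χ 1 = (Cfsg.charDegree χ : ℂ) := Cfsg.Agent.H82.irr_one_eq_charDegree ⟨χ, hirr⟩
  refine ⟨Cfsg.charDegree χ, hdeg, fun hd => ?_⟩
  obtain ⟨k, hk⟩ := hd
  obtain ⟨m, hm⟩ := hpq
  have key : ∀ a b c : ℤ, (a : ℂ) * χ 1 = b * (Fintype.card F : ℂ) + c → (c = 1 ∨ c = -1) → False := by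
    intro a b c h hc
    rw [hdeg] at h
    have h' : a * (Cfsg.charDegree χ : ℤ) = b * (Fintype.card F : ℤ) + c := by exact_mod_cast h
    rw [hk, hm] at h'
    have h3 : (p : ℤ) ∣ c := by
      refine ⟨a * k - b * m, ?_⟩
      push_cast at h'
      linear_combination -h'
    have h4 : (p : ℤ) ∣ 1 := by
      rcases hc with rfl | rfl
      · exact h3
      · exact (Int.dvd_neg).mp h3
    have h5 : p ∣ 1 := by exact_mod_cast h4
    exact hp1 h5
  rcases SL2_odd_irr_cases hodd D hirr with h | h | ⟨α, hα, h⟩ | h | h | ⟨hc, ⟨h1, -⟩ | ⟨h1, -⟩⟩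
  · exact key 1 0 1 (by rw [h]; push_cast; ring) (Or.inl rfl)
  · exact hne (by rw [h, stSL_one])
  · exact key 1 1 1 (by rw [h, psSL_one]; push_cast; ring) (Or.inl rfl)
  · exact key 2 1 1 (by rw [h, D.deg₁]; push_cast; ring) (Or.inl rfl)
  · exact key 2 1 1 (by rw [h, D.deg₂]; push_cast; ring) (Or.inl rfl)
  · exact key 1 1 (-1) (by rw [h1]; push_cast; ring) (Or.inr rfl)
  · exact key 2 1 (-1) (by rw [h1]; push_cast; ring) (Or.inr rfl)


section General

variable {G : Type*} [Group G] {p : ℕ} {M : Ideal AlgInt}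

theorem sameBlock_symm {χ ψ : G → ℂ} (h : SameBlock M χ ψ) : SameBlock M ψ χ := fun g => by
  have := Cfsg.Agent.H20.memLocalIdeal_neg (h g)
  rwa [neg_sub] at this

/-- The Sylow subgroups are defect groups of a block for which `1` is a defect class. -/
theorem isDefectGroup_of_one [Fact p.Prime] (B : Set (IrrCharacter G)) (h : IsDefectClass M B 1)
    (P : Sylow p G) : IsDefectGroup p M B (P : Subgroup G) := by
  refine ⟨1, h, ?_⟩
  have hle : (P : Subgroup G) ≤ Subgroup.centralizer ({1} : Set G) := by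
    intro x _
    simp [Subgroup.mem_centralizer_iff]
  refine ⟨P.subtype hle, ?_⟩
  rw [Sylow.coe_subtype]
  exact (Subgroup.map_subgroupOf_eq_of_le hle).symm

variable [Fintype G]

theorem sum_irr_one_mul_conj [Fintype (IrrCharacter G)] :
    ∑ χ : IrrCharacter G, χ.1 1 * conj (χ.1 1) = (Nat.card G : ℂ) := by
  have h := Cfsg.Agent.H4.column_orthogonality (1 : G) 1
  rw [finsum_eq_sum_of_fintype] at h
  rw [h]
  congr 1
  exact Nat.card_congr (Equiv.subtypeUnivEquiv fun x => by simp)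

/-- The central character of a character of degree prime to `p` at an element whose class has
size divisible by `p`. -/
theorem centralChar_memLocalIdeal_of_dvd (hM : IsPModular p M) (χ : IrrCharacter G) (d : ℕ)
    (hd : χ.1 1 = d) (hpd : ¬ p ∣ d) (g : G)
    (hidx : p ∣ (Subgroup.centralizer ({g} : Set G)).index) :
    MemLocalIdeal M (centralChar χ.1 g) := by
  have hMp := Cfsg.Agent.H20.isPrime_of_isPModular hM
  unfold centralChar
  rw [hd, div_eq_mul_inv]
  exact Cfsg.Agent.H20.memLocalIdeal_mul_right hMp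
    (Cfsg.Agent.H20.memLocalIdeal_mul_right hMp ((Cfsg.Agent.H20.memLocalIdeal_natCast_iff hM _).mpr hidx)
      (Cfsg.Agent.H20.memLocalRing_algInt hMp ⟨_, Cfsg.Agent.H81.irr_isIntegral χ g⟩))
    (Cfsg.Agent.H20.memLocalRing_inv_natCast hM hpd)

/-- The central character of a character of degree prime to `p` at an element where the
character is congruent to a multiple of its degree. -/
theorem centralChar_sub_memLocalIdeal (hM : IsPModular p M) (χ : IrrCharacter G) (d : ℕ)
    (hd : χ.1 1 = d) (hpd : ¬ p ∣ d) (g : G) (c : ℂ)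
    (h : MemLocalIdeal M (χ.1 g - c * χ.1 1)) :
    MemLocalIdeal M (centralChar χ.1 g -
      ((Subgroup.centralizer ({g} : Set G)).index : ℂ) * c) := by
  have hMp := Cfsg.Agent.H20.isPrime_of_isPModular hM
  have h0 : (d : ℂ) ≠ 0 := by
    rw [← hd]; exact Cfsg.Agent.H4.irr_one_ne_zero χ
  have e : centralChar χ.1 g - ((Subgroup.centralizer ({g} : Set G)).index : ℂ) * c =
      ((Subgroup.centralizer ({g} : Set G)).index : ℂ) * ((χ.1 g - c * χ.1 1) * (d : ℂ)⁻¹) := by
    unfold centralChar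
    rw [hd]
    field_simp
  rw [e]
  exact Cfsg.Agent.H20.memLocalIdeal_mul_left hMp (Cfsg.Agent.H20.memLocalRing_natCast hMp _)
    (Cfsg.Agent.H20.memLocalIdeal_mul_right hMp h (Cfsg.Agent.H20.memLocalRing_inv_natCast hM hpd))

end General

section Blocks

variable {p : ℕ} {M : Ideal AlgInt}

omit [Fintype F] [Fintype (Matrix.SpecialLinearGroup (Fin 2) F)] [Fintype (MulChar F ℂ)]
  [Fintype (Cfsg.IrrCharacter (Matrix.SpecialLinearGroup (Fin 2) F))] in
theorem irr_neg_of_eq [Finite F] {χ : Matrix.SpecialLinearGroup (Fin 2) F → ℂ}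
    (hirr : Cfsg.IsIrrCharacter (Matrix.SpecialLinearGroup (Fin 2) F) χ) (ω : ℂ)
    (h : χ (-1) = ω * χ 1) : ∀ g, χ (-g) = ω * χ g := by
  obtain ⟨ω', -, hχ⟩ := irr_neg hirr
  have h1 := hχ 1
  rw [h] at h1
  have h0 : χ 1 ≠ 0 := Cfsg.Agent.H82.irr_one_ne_zero ⟨χ, hirr⟩
  have : ω = ω' := mul_right_cancel₀ h0 h1
  rw [this]
  exact hχ

omit [Fintype F] [Fintype (Matrix.SpecialLinearGroup (Fin 2) F)] [Fintype (MulChar F ℂ)]
  [Fintype (Cfsg.IrrCharacter (Matrix.SpecialLinearGroup (Fin 2) F))] in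
theorem irr_sign_cases [Finite F] {χ : Matrix.SpecialLinearGroup (Fin 2) F → ℂ}
    (hirr : Cfsg.IsIrrCharacter (Matrix.SpecialLinearGroup (Fin 2) F) χ) :
    χ (-1) = χ 1 ∨ χ (-1) = -χ 1 := by
  obtain ⟨ω, hω, hχ⟩ := irr_neg hirr
  have h1 := hχ 1
  rcases hω with rfl | rfl
  · left; rw [h1, one_mul]
  · right; rw [h1]; ring

/-- Characters other than the Steinberg character with the same central sign are in the same
block. -/
theorem sl2_sameBlock_of_sign [Fact p.Prime] [CharP F p] (hodd : Odd (Fintype.card F))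
    (D : QuadDecomp α₀ ξ₁ ξ₂) (hM : IsPModular p M)
    (χ ψ : Cfsg.IrrCharacter (Matrix.SpecialLinearGroup (Fin 2) F))
    (hχ : χ.1 1 ≠ (Fintype.card F : ℂ)) (hψ : ψ.1 1 ≠ (Fintype.card F : ℂ)) (ω : ℂ)
    (hχω : ∀ g, χ.1 (-g) = ω * χ.1 g) (hψω : ∀ g, ψ.1 (-g) = ω * ψ.1 g) :
    SameBlock M χ.1 ψ.1 := by
  have hMp := Cfsg.Agent.H20.isPrime_of_isPModular hM
  obtain ⟨d, hd, hpd⟩ := sl2_degree_not_dvd p hodd D χ.2 hχ
  obtain ⟨d', hd', hpd'⟩ := sl2_degree_not_dvd p hodd D ψ.2 hψ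
  intro g
  rcases sl2_element_cases p hodd g with hidx | ⟨u, hu, hg | hg⟩
  · exact Cfsg.Agent.H20.memLocalIdeal_sub hMp (centralChar_memLocalIdeal_of_dvd hM χ d hd hpd g hidx)
      (centralChar_memLocalIdeal_of_dvd hM ψ d' hd' hpd' g hidx)
  · rw [hg]
    have key : ∀ φ : Cfsg.IrrCharacter (Matrix.SpecialLinearGroup (Fin 2) F),
        MemLocalIdeal M (φ.1 u - 1 * φ.1 1) := by
      intro φ
      have := Cfsg.Agent.H20.irr_mul_sub_of_commute hM φ u 1 (Commute.one_right u) (k := 1)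
        (by rw [pow_one]; exact hu)
      rw [mul_one] at this
      rw [one_mul]
      exact this
    have e1 := centralChar_sub_memLocalIdeal hM χ d hd hpd u 1 (key χ)
    have e2 := centralChar_sub_memLocalIdeal hM ψ d' hd' hpd' u 1 (key ψ)
    have := Cfsg.Agent.H20.memLocalIdeal_sub hMp e1 e2
    rw [sub_sub_sub_cancel_right] at this
    exact this
  · rw [hg]
    have hcomm : Commute u (-1 : Matrix.SpecialLinearGroup (Fin 2) F) := by
      show u * -1 = -1 * u
      rw [mul_neg, mul_one, neg_mul, one_mul]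
    have key : ∀ φ : Cfsg.IrrCharacter (Matrix.SpecialLinearGroup (Fin 2) F),
        (∀ g, φ.1 (-g) = ω * φ.1 g) → MemLocalIdeal M (φ.1 (u * -1) - ω * φ.1 1) := by
      intro φ hφ
      have := Cfsg.Agent.H20.irr_mul_sub_of_commute hM φ u (-1) hcomm (k := 1)
        (by rw [pow_one]; exact hu)
      rw [hφ 1] at this
      exact this
    have e1 := centralChar_sub_memLocalIdeal hM χ d hd hpd (u * -1) ω (key χ hχω)
    have e2 := centralChar_sub_memLocalIdeal hM ψ d' hd' hpd' (u * -1) ω (key ψ hψω)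
    have := Cfsg.Agent.H20.memLocalIdeal_sub hMp e1 e2
    rw [sub_sub_sub_cancel_right] at this
    exact this

/-- The Steinberg character is not in the block of any other character. -/
theorem sl2_not_sameBlock_st [Fact p.Prime] [CharP F p] (hodd : Odd (Fintype.card F))
    (D : QuadDecomp α₀ ξ₁ ξ₂) (hM : IsPModular p M)
    (ψ : Cfsg.IrrCharacter (Matrix.SpecialLinearGroup (Fin 2) F))
    (hψ : ψ.1 1 ≠ (Fintype.card F : ℂ)) : ¬ SameBlock M stSL ψ.1 := by
  intro hsame
  have hMp := Cfsg.Agent.H20.isPrime_of_isPModular hM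
  have hpq := char_dvd_card (F := F) p
  have hq1 : 1 < Fintype.card F := Fintype.one_lt_card
  obtain ⟨ν, g, hν, h00, h01, h10⟩ := exists_ns_elt hodd
  have hell := elliptic_of_ns hν g h00 h01 h10
  obtain ⟨d', hd', hpd'⟩ := sl2_degree_not_dvd p hodd D ψ.2 hψ
  have hidx := Subgroup.card_mul_index
    (Subgroup.centralizer ({g} : Set (Matrix.SpecialLinearGroup (Fin 2) F)))
  rw [card_SL2, sl2_card_centralizer_elliptic hodd g hell] at hidx
  have hidx' : (Subgroup.centralizer ({g} : Set (Matrix.SpecialLinearGroup (Fin 2) F))).index =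
      Fintype.card F * (Fintype.card F - 1) := by
    obtain ⟨m, hm⟩ : ∃ m, Fintype.card F = m + 1 := ⟨Fintype.card F - 1, by omega⟩
    rw [hm] at hidx ⊢
    have h3 : (m + 1) ^ 2 - 1 = (m + 1 + 1) * m := by
      have : (m + 1) ^ 2 = (m + 1 + 1) * m + 1 := by ring
      rw [this, Nat.add_sub_cancel]
    rw [h3] at hidx
    rw [Nat.add_sub_cancel]
    have h4 : (m + 1 + 1) * (Subgroup.centralizer ({g} : Set (Matrix.SpecialLinearGroup (Fin 2) F))).index
        = (m + 1 + 1) * ((m + 1) * m) := by rw [hidx]; ring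
    exact Nat.eq_of_mul_eq_mul_left (by omega) h4
  have hpidx : p ∣ (Subgroup.centralizer ({g} : Set (Matrix.SpecialLinearGroup (Fin 2) F))).index := by
    rw [hidx']; exact Dvd.dvd.mul_right hpq _
  have h1 := centralChar_memLocalIdeal_of_dvd hM ψ d' hd' hpd' g hpidx
  have hst : centralChar (stSL (F := F)) g = 1 - (Fintype.card F : ℂ) := by
    unfold centralChar
    rw [hidx', stSL_elliptic g hell, stSL_one]
    have hq0 : (Fintype.card F : ℂ) ≠ 0 := card_ne_zero_complex
    push_cast [Nat.cast_sub hq1.le]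
    field_simp
    ring
  have h2 := hsame g
  rw [hst] at h2
  have h3 := Cfsg.Agent.H20.memLocalIdeal_add hMp h2 h1
  rw [sub_add_cancel] at h3
  have h4 := Cfsg.Agent.H20.memLocalIdeal_add hMp h3
    ((Cfsg.Agent.H20.memLocalIdeal_natCast_iff hM (Fintype.card F)).mpr hpq)
  rw [sub_add_cancel] at h4
  exact Cfsg.Agent.H20.not_memLocalIdeal_one hMp h4

omit [Fintype F] [Fintype (MulChar F ℂ)]
  [Fintype (Cfsg.IrrCharacter (Matrix.SpecialLinearGroup (Fin 2) F))] in
/-- Characters with different central signs are in different blocks. -/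
theorem sl2_not_sameBlock_sign (hM : IsPModular p M) (hp2 : p ≠ 2)
    {χ ψ : Matrix.SpecialLinearGroup (Fin 2) F → ℂ} (h1 : χ 1 ≠ 0) (h1' : ψ 1 ≠ 0)
    (hχ : χ (-1) = χ 1) (hψ : ψ (-1) = -ψ 1) : ¬ SameBlock M χ ψ := by
  intro h
  have h2 := h (-1)
  rw [Cfsg.Agent.H20.centralChar_of_mem_center χ negOne_mem_center,
    Cfsg.Agent.H20.centralChar_of_mem_center ψ negOne_mem_center, hχ, hψ] at h2
  have e : χ 1 / χ 1 - -ψ 1 / ψ 1 = ((2 : ℕ) : ℂ) := by
    field_simp
    norm_num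
  rw [e, Cfsg.Agent.H20.memLocalIdeal_natCast_iff hM] at h2
  exact hp2 ((Nat.prime_dvd_prime_iff_eq hM.1 Nat.prime_two).mp h2)

end Blocks


section Main

variable {p : ℕ} {M : Ideal AlgInt}

/-- The block of each irreducible character. -/
theorem sl2_blockOf [Fact p.Prime] [CharP F p] (hp2 : p ≠ 2) (D : QuadDecomp α₀ ξ₁ ξ₂)
    (hM : IsPModular p M) (χ : Cfsg.IrrCharacter (Matrix.SpecialLinearGroup (Fin 2) F)) :
    (χ.1 1 = (Fintype.card F : ℂ) → blockOf M χ.1 =
      {ψ : Cfsg.IrrCharacter (Matrix.SpecialLinearGroup (Fin 2) F) | ψ.1 1 = (Fintype.card F : ℂ)}) ∧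
    (χ.1 (-1) = χ.1 1 → χ.1 1 ≠ (Fintype.card F : ℂ) → blockOf M χ.1 =
      {ψ : Cfsg.IrrCharacter (Matrix.SpecialLinearGroup (Fin 2) F) |
        ψ.1 (-1) = ψ.1 1 ∧ ψ.1 1 ≠ (Fintype.card F : ℂ)}) ∧
    (χ.1 (-1) = -χ.1 1 → blockOf M χ.1 =
      {ψ : Cfsg.IrrCharacter (Matrix.SpecialLinearGroup (Fin 2) F) | ψ.1 (-1) = -ψ.1 1}) := by
  have hodd := odd_card_of_char (F := F) p hp2
  have hMp := Cfsg.Agent.H20.isPrime_of_isPModular hM
  have hq0 : (Fintype.card F : ℂ) ≠ 0 := card_ne_zero_complex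
  have hst : ∀ φ : Cfsg.IrrCharacter (Matrix.SpecialLinearGroup (Fin 2) F),
      φ.1 1 = (Fintype.card F : ℂ) → φ.1 = stSL := fun φ h => SL2_odd_of_degree_q hodd D φ.2 h
  have hne0 : ∀ φ : Cfsg.IrrCharacter (Matrix.SpecialLinearGroup (Fin 2) F), φ.1 1 ≠ 0 :=
    fun φ => Cfsg.Agent.H82.irr_one_ne_zero φ
  have hneg : ∀ φ : Cfsg.IrrCharacter (Matrix.SpecialLinearGroup (Fin 2) F),
      φ.1 (-1) = -φ.1 1 → φ.1 1 ≠ (Fintype.card F : ℂ) := by
    intro φ h hq
    have := hst φ hq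
    rw [this, stSL_negOne, stSL_one] at h
    apply hq0
    linear_combination (1 / 2 : ℂ) * h
  refine ⟨fun hq => ?_, fun hs hq => ?_, fun hs => ?_⟩
  · have hχ := hst χ hq
    ext ψ
    show SameBlock M χ.1 ψ.1 ↔ ψ.1 1 = (Fintype.card F : ℂ)
    rw [hχ]
    constructor
    · intro h
      by_contra hne
      exact sl2_not_sameBlock_st hodd D hM ψ hne h
    · intro h
      rw [hst ψ h]
      intro g
      rw [sub_self]
      exact Cfsg.Agent.H20.memLocalIdeal_zero hMp
  · ext ψ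
    show SameBlock M χ.1 ψ.1 ↔ (ψ.1 (-1) = ψ.1 1 ∧ ψ.1 1 ≠ (Fintype.card F : ℂ))
    constructor
    · intro h
      have hψq : ψ.1 1 ≠ (Fintype.card F : ℂ) := by
        intro hq'
        have h' := sameBlock_symm h
        rw [hst ψ hq'] at h'
        exact sl2_not_sameBlock_st hodd D hM χ hq h'
      refine ⟨?_, hψq⟩
      rcases irr_sign_cases ψ.2 with h' | h'
      · exact h'
      · exact absurd h (sl2_not_sameBlock_sign hM hp2 (hne0 χ) (hne0 ψ) hs h')
    · rintro ⟨h', hψq⟩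
      exact sl2_sameBlock_of_sign hodd D hM χ ψ hq hψq 1
        (irr_neg_of_eq χ.2 1 (by rw [one_mul]; exact hs))
        (irr_neg_of_eq ψ.2 1 (by rw [one_mul]; exact h'))
  · have hq := hneg χ hs
    ext ψ
    show SameBlock M χ.1 ψ.1 ↔ ψ.1 (-1) = -ψ.1 1
    constructor
    · intro h
      rcases irr_sign_cases ψ.2 with h' | h'
      · exact absurd (sameBlock_symm h) (sl2_not_sameBlock_sign hM hp2 (hne0 ψ) (hne0 χ) h' hs)
      · exact h'
    · intro h'
      exact sl2_sameBlock_of_sign hodd D hM χ ψ hq (hneg ψ h') (-1)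
        (irr_neg_of_eq χ.2 (-1) (by rw [hs]; ring))
        (irr_neg_of_eq ψ.2 (-1) (by rw [h']; ring))

omit [Fintype (MulChar F ℂ)] in
/-- There is an irreducible character which is faithful on the centre. -/
theorem exists_irr_neg_sign (h2 : (2 : F) ≠ 0) :
    ∃ χ : Cfsg.IrrCharacter (Matrix.SpecialLinearGroup (Fin 2) F), χ.1 (-1) = -χ.1 1 := by
  by_contra hcon
  push Not at hcon
  have h := sum_irr_negOne (F := F) h2
  have hall : ∀ χ : Cfsg.IrrCharacter (Matrix.SpecialLinearGroup (Fin 2) F),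
      χ.1 (-1) * conj (χ.1 1) = χ.1 1 * conj (χ.1 1) := by
    intro χ
    rcases irr_sign_cases χ.2 with h' | h'
    · rw [h']
    · exact absurd h' (hcon χ)
  rw [Finset.sum_congr rfl fun χ _ => hall χ, sum_irr_one_mul_conj] at h
  have : Nat.card (Matrix.SpecialLinearGroup (Fin 2) F) ≠ 0 := Nat.card_pos.ne'
  exact this (by exact_mod_cast h)

end Main

/-- The `p`-blocks of `SL₂(F)` in the defining characteristic `p ≠ 2`. -/
theorem sl2_blocks {F : Type*} [Field F] [Fintype F] (p : ℕ) [Fact p.Prime] [CharP F p]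
    (hp : p ≠ 2) (M : Ideal Cfsg.AlgInt) (hM : Cfsg.IsPModular p M) :
    (∀ B : Set (Cfsg.IrrCharacter (Matrix.SpecialLinearGroup (Fin 2) F)), Cfsg.IsPBlock M B ↔
      (B = {χ : Cfsg.IrrCharacter (Matrix.SpecialLinearGroup (Fin 2) F) |
          χ.1 1 = (Fintype.card F : ℂ)} ∨
       B = {χ : Cfsg.IrrCharacter (Matrix.SpecialLinearGroup (Fin 2) F) |
          χ.1 (-1) = χ.1 1 ∧ χ.1 1 ≠ (Fintype.card F : ℂ)} ∨
       B = {χ : Cfsg.IrrCharacter (Matrix.SpecialLinearGroup (Fin 2) F) | χ.1 (-1) = -χ.1 1})) ∧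
    Nat.card {B : Set (Cfsg.IrrCharacter (Matrix.SpecialLinearGroup (Fin 2) F)) //
      Cfsg.IsPBlock M B} = 3 ∧
    ∀ P : Sylow p (Matrix.SpecialLinearGroup (Fin 2) F),
      Cfsg.IsDefectGroup p M {χ : Cfsg.IrrCharacter (Matrix.SpecialLinearGroup (Fin 2) F) |
        χ.1 (-1) = χ.1 1 ∧ χ.1 1 ≠ (Fintype.card F : ℂ)}
          (P : Subgroup (Matrix.SpecialLinearGroup (Fin 2) F)) ∧
      Cfsg.IsDefectGroup p M {χ : Cfsg.IrrCharacter (Matrix.SpecialLinearGroup (Fin 2) F) |
        χ.1 (-1) = -χ.1 1} (P : Subgroup (Matrix.SpecialLinearGroup (Fin 2) F)) := by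
  classical
  letI : Fintype (Matrix.SpecialLinearGroup (Fin 2) F) := Fintype.ofFinite _
  letI : Fintype (MulChar F ℂ) := Fintype.ofFinite _
  letI : Fintype (Cfsg.IrrCharacter (Matrix.SpecialLinearGroup (Fin 2) F)) :=
    Cfsg.Agent.H4.fintypeIrr _
  have hodd := odd_card_of_char (F := F) p hp
  have h2 := two_ne_zero_of_odd hodd
  obtain ⟨α₀, ξ₁, ξ₂, D⟩ := exists_quadDecomp hodd
  have hMp := Cfsg.Agent.H20.isPrime_of_isPModular hM
  have hq1 : 1 < Fintype.card F := Fintype.one_lt_card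
  have hq0 : (Fintype.card F : ℂ) ≠ 0 := card_ne_zero_complex
  have hpq := char_dvd_card (F := F) p
  have hpp := (Fact.out : p.Prime)
  obtain ⟨St, hSt⟩ : ∃ St : Cfsg.IrrCharacter (Matrix.SpecialLinearGroup (Fin 2) F), St.1 = stSL :=
    ⟨⟨stSL, isIrrCharacter_stSL⟩, rfl⟩
  obtain ⟨triv, htriv⟩ : ∃ t : Cfsg.IrrCharacter (Matrix.SpecialLinearGroup (Fin 2) F),
      t.1 = fun _ => (1 : ℂ) := ⟨⟨fun _ => 1, Cfsg.Agent.H4.isIrrCharacter_one⟩, rfl⟩
  obtain ⟨χm, hχm⟩ := exists_irr_neg_sign (F := F) h2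
  have hB := fun χ => sl2_blockOf hp D hM χ
  have h1q : (1 : ℂ) ≠ (Fintype.card F : ℂ) := by
    intro h
    have h' : ((1 : ℕ) : ℂ) = (Fintype.card F : ℂ) := by simpa using h
    have := Nat.cast_injective h'
    omega
  have hSt1 : St.1 1 = (Fintype.card F : ℂ) := by rw [hSt, stSL_one]
  have hStm : St.1 (-1) = (Fintype.card F : ℂ) := by rw [hSt, stSL_negOne]
  have hiff : ∀ B : Set (Cfsg.IrrCharacter (Matrix.SpecialLinearGroup (Fin 2) F)),
      Cfsg.IsPBlock M B ↔
      (B = {χ : Cfsg.IrrCharacter (Matrix.SpecialLinearGroup (Fin 2) F) |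
          χ.1 1 = (Fintype.card F : ℂ)} ∨
       B = {χ : Cfsg.IrrCharacter (Matrix.SpecialLinearGroup (Fin 2) F) |
          χ.1 (-1) = χ.1 1 ∧ χ.1 1 ≠ (Fintype.card F : ℂ)} ∨
       B = {χ : Cfsg.IrrCharacter (Matrix.SpecialLinearGroup (Fin 2) F) | χ.1 (-1) = -χ.1 1}) := by
    intro B
    constructor
    · rintro ⟨χ, rfl⟩
      by_cases hq : χ.1 1 = (Fintype.card F : ℂ)
      · exact Or.inl ((hB χ).1 hq)
      · rcases irr_sign_cases χ.2 with h | h
        · exact Or.inr (Or.inl ((hB χ).2.1 h hq))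
        · exact Or.inr (Or.inr ((hB χ).2.2 h))
    · rintro (rfl | rfl | rfl)
      · exact ⟨St, ((hB St).1 hSt1).symm⟩
      · exact ⟨triv, ((hB triv).2.1 (by rw [htriv]) (by rw [htriv]; exact h1q)).symm⟩
      · exact ⟨χm, ((hB χm).2.2 hχm).symm⟩
  refine ⟨hiff, ?_, ?_⟩
  · have hset : {B : Set (Cfsg.IrrCharacter (Matrix.SpecialLinearGroup (Fin 2) F)) |
        Cfsg.IsPBlock M B} =
        {{χ : Cfsg.IrrCharacter (Matrix.SpecialLinearGroup (Fin 2) F) |
          χ.1 1 = (Fintype.card F : ℂ)},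
         {χ : Cfsg.IrrCharacter (Matrix.SpecialLinearGroup (Fin 2) F) |
          χ.1 (-1) = χ.1 1 ∧ χ.1 1 ≠ (Fintype.card F : ℂ)},
         {χ : Cfsg.IrrCharacter (Matrix.SpecialLinearGroup (Fin 2) F) | χ.1 (-1) = -χ.1 1}} := by
      ext B
      simp only [Set.mem_ofPred_eq, Set.mem_insert_iff, Set.mem_singleton_iff]
      exact hiff B
    show Nat.card ↥{B : Set (Cfsg.IrrCharacter (Matrix.SpecialLinearGroup (Fin 2) F)) |
        Cfsg.IsPBlock M B} = 3
    rw [Nat.card_coe_set_eq, hset]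
    refine Set.ncard_eq_three.mpr ⟨_, _, _, ?_, ?_, ?_, rfl⟩
    · intro h
      have hmem : St ∈ {χ : Cfsg.IrrCharacter (Matrix.SpecialLinearGroup (Fin 2) F) |
          χ.1 1 = (Fintype.card F : ℂ)} := hSt1
      rw [h] at hmem
      exact hmem.2 hSt1
    · intro h
      have hmem : St ∈ {χ : Cfsg.IrrCharacter (Matrix.SpecialLinearGroup (Fin 2) F) |
          χ.1 1 = (Fintype.card F : ℂ)} := hSt1
      rw [h] at hmem
      have h' : St.1 (-1) = -St.1 1 := hmem
      rw [hStm, hSt1] at h'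
      apply hq0
      linear_combination (1 / 2 : ℂ) * h'
    · intro h
      have hmem : triv ∈ {χ : Cfsg.IrrCharacter (Matrix.SpecialLinearGroup (Fin 2) F) |
          χ.1 (-1) = χ.1 1 ∧ χ.1 1 ≠ (Fintype.card F : ℂ)} :=
        ⟨by rw [htriv], by rw [htriv]; exact h1q⟩
      rw [h] at hmem
      have h' : triv.1 (-1) = -triv.1 1 := hmem
      rw [htriv] at h'
      norm_num at h'
  · intro P
    have hhalf : ¬ p ∣ 2 := fun h => hp ((Nat.prime_dvd_prime_iff_eq hpp Nat.prime_two).mp h)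
    have hhalfR : MemLocalRing M (((2 : ℕ) : ℂ)⁻¹) := Cfsg.Agent.H20.memLocalRing_inv_natCast hM hhalf
    have hhalfI : ¬ MemLocalIdeal M (((2 : ℕ) : ℂ)⁻¹) := by
      intro h
      have := Cfsg.Agent.H20.memLocalIdeal_mul_left hMp (Cfsg.Agent.H20.memLocalRing_natCast hMp 2) h
      rw [mul_inv_cancel₀ (by norm_num)] at this
      exact Cfsg.Agent.H20.not_memLocalIdeal_one hMp this
    have hS := sum_irr_one_mul_conj (G := Matrix.SpecialLinearGroup (Fin 2) F)
    have hN := sum_irr_negOne (F := F) h2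
    have hq2 : 1 ≤ Fintype.card F ^ 2 := Nat.one_le_pow _ _ Fintype.card_pos
    have hcardG : (Nat.card (Matrix.SpecialLinearGroup (Fin 2) F) : ℂ) =
        (Fintype.card F : ℂ) * (((Fintype.card F ^ 2 - 1 : ℕ)) : ℂ) := by
      rw [card_SL2]; push_cast; ring
    have hpq2 : ¬ p ∣ Fintype.card F ^ 2 - 1 := by
      intro h
      have h1 : p ∣ Fintype.card F ^ 2 := Dvd.dvd.pow hpq two_ne_zero
      have h3 : p ∣ Fintype.card F ^ 2 - (Fintype.card F ^ 2 - 1) := Nat.dvd_sub h1 h
      have h4 : Fintype.card F ^ 2 - (Fintype.card F ^ 2 - 1) = 1 := by omega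
      rw [h4] at h3
      exact hpp.one_lt.ne' (Nat.dvd_one.mp h3)
    have hq21 : (((Fintype.card F ^ 2 - 1 : ℕ)) : ℂ) ≠ 0 := by
      have : Fintype.card F ^ 2 - 1 ≠ 0 := by
        have : 1 < Fintype.card F ^ 2 := Nat.one_lt_pow two_ne_zero hq1
        omega
      exact_mod_cast this
    have hx : MemLocalIdeal M ((Fintype.card F : ℂ) * (((Fintype.card F ^ 2 - 1 : ℕ)) : ℂ)⁻¹) :=
      Cfsg.Agent.H20.memLocalIdeal_mul_right hMp
        ((Cfsg.Agent.H20.memLocalIdeal_natCast_iff hM _).mpr hpq)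
        (Cfsg.Agent.H20.memLocalRing_inv_natCast hM hpq2)
    have hone : ∀ (B : Set (Cfsg.IrrCharacter (Matrix.SpecialLinearGroup (Fin 2) F))),
        ∀ χ ∈ B, ¬ MemLocalIdeal M (centralChar χ.1 1) := by
      intro B χ _
      rw [Cfsg.Agent.H20.centralChar_one χ.1 (Cfsg.Agent.H82.irr_one_ne_zero χ)]
      exact Cfsg.Agent.H20.not_memLocalIdeal_one hMp
    have hStu : ∀ χ : Cfsg.IrrCharacter (Matrix.SpecialLinearGroup (Fin 2) F),
        χ.1 1 = (Fintype.card F : ℂ) → χ = St := by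
      intro χ hq
      apply Subtype.ext
      rw [hSt]
      exact SL2_odd_of_degree_q hodd D χ.2 hq
    constructor
    · apply isDefectGroup_of_one
      have hcoef : blockCoeff {χ : Cfsg.IrrCharacter (Matrix.SpecialLinearGroup (Fin 2) F) |
          χ.1 (-1) = χ.1 1 ∧ χ.1 1 ≠ (Fintype.card F : ℂ)} 1 =
          ((2 : ℕ) : ℂ)⁻¹ - (Fintype.card F : ℂ) * (((Fintype.card F ^ 2 - 1 : ℕ)) : ℂ)⁻¹ := by
        rw [Cfsg.Agent.H20.blockCoeff_eq]
        have hterm : ∀ χ : Cfsg.IrrCharacter (Matrix.SpecialLinearGroup (Fin 2) F),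
            @ite ℂ (χ ∈ {χ : Cfsg.IrrCharacter (Matrix.SpecialLinearGroup (Fin 2) F) |
              χ.1 (-1) = χ.1 1 ∧ χ.1 1 ≠ (Fintype.card F : ℂ)}) (Classical.propDecidable _)
              (χ.1 1 * conj (χ.1 1)) 0 =
            (χ.1 1 * conj (χ.1 1) + χ.1 (-1) * conj (χ.1 1)) / 2 -
              (if χ = St then (Fintype.card F : ℂ) ^ 2 else 0) := by
          intro χ
          by_cases hmem : χ ∈ {χ : Cfsg.IrrCharacter (Matrix.SpecialLinearGroup (Fin 2) F) |
              χ.1 (-1) = χ.1 1 ∧ χ.1 1 ≠ (Fintype.card F : ℂ)}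
          · rw [if_pos hmem]
            have hne : χ ≠ St := by
              rintro rfl
              exact hmem.2 hSt1
            rw [if_neg hne, hmem.1]
            ring
          · rw [if_neg hmem]
            rcases irr_sign_cases χ.2 with h | h
            · have hq : χ.1 1 = (Fintype.card F : ℂ) := by
                by_contra hq
                exact hmem ⟨h, hq⟩
              rw [if_pos (hStu χ hq), h, hq, Complex.conj_natCast]
              ring
            · have hne : χ ≠ St := by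
                rintro rfl
                rw [hStm, hSt1] at h
                apply hq0
                linear_combination (1 / 2 : ℂ) * h
              rw [if_neg hne, h]
              ring
        rw [Finset.sum_congr rfl fun χ _ => hterm χ, Finset.sum_sub_distrib, ← Finset.sum_div,
          Finset.sum_add_distrib, hS, hN, Finset.sum_ite_eq' Finset.univ St,
          if_pos (Finset.mem_univ _), hcardG]
        push_cast [Nat.cast_sub hq2] at hq21 ⊢
        field_simp
        ring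
      refine ⟨?_, ?_, hone _⟩
      · rw [hcoef]
        exact Cfsg.Agent.H20.memLocalRing_sub hMp hhalfR (Cfsg.Agent.H20.MemLocalIdeal.memLocalRing hx)
      · rw [hcoef]
        intro h
        have := Cfsg.Agent.H20.memLocalIdeal_add hMp h hx
        rw [sub_add_cancel] at this
        exact hhalfI this
    · apply isDefectGroup_of_one
      have hcoef : blockCoeff {χ : Cfsg.IrrCharacter (Matrix.SpecialLinearGroup (Fin 2) F) |
          χ.1 (-1) = -χ.1 1} 1 = ((2 : ℕ) : ℂ)⁻¹ := by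
        rw [Cfsg.Agent.H20.blockCoeff_eq]
        have hterm : ∀ χ : Cfsg.IrrCharacter (Matrix.SpecialLinearGroup (Fin 2) F),
            @ite ℂ (χ ∈ {χ : Cfsg.IrrCharacter (Matrix.SpecialLinearGroup (Fin 2) F) |
              χ.1 (-1) = -χ.1 1}) (Classical.propDecidable _) (χ.1 1 * conj (χ.1 1)) 0 =
            (χ.1 1 * conj (χ.1 1) - χ.1 (-1) * conj (χ.1 1)) / 2 := by
          intro χ
          by_cases hmem : χ ∈ {χ : Cfsg.IrrCharacter (Matrix.SpecialLinearGroup (Fin 2) F) |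
              χ.1 (-1) = -χ.1 1}
          · rw [if_pos hmem]
            have h : χ.1 (-1) = -χ.1 1 := hmem
            rw [h]
            ring
          · rw [if_neg hmem]
            rcases irr_sign_cases χ.2 with h | h
            · rw [h]; ring
            · exact absurd h hmem
        rw [Finset.sum_congr rfl fun χ _ => hterm χ, ← Finset.sum_div, Finset.sum_sub_distrib,
          hS, hN, hcardG]
        push_cast [Nat.cast_sub hq2] at hq21 ⊢
        field_simp
        ring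
      refine ⟨?_, ?_, hone _⟩
      · rw [hcoef]; exact hhalfR
      · rw [hcoef]; exact hhalfI

end Cfsg.Agent.H44
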