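import Cfsg.Agent.H44.SL2Sylow
import Cfsg.Agent.H44.AbFourier

/-!
# Restriction of the characters of SL₂(F) to a non-split torus (helper44)
-/

set_option autoImplicit false

namespace Cfsg.Agent.H44

open Matrix
open scoped ComplexConjugate

variable {F : Type*} [Field F] [Fintype F]

/-- A non-split torus of `SL₂(F)`: a cyclic subgroup of order `q + 1` containing `-1` whose
non-central elements are elliptic. -/
structure IsNSTorus (C : Subgroup (Matrix.SpecialLinearGroup (Fin 2) F)) : Prop where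
  card : Nat.card C = Fintype.card F + 1
  comm : ∀ a b : C, a * b = b * a
  neg_mem : (-1 : Matrix.SpecialLinearGroup (Fin 2) F) ∈ C
  elliptic : ∀ c ∈ C, c ≠ 1 → c ≠ -1 → Elliptic (c : Matrix (Fin 2) (Fin 2) F)
  cyclic : IsCyclic C

/-- The centraliser of an elliptic element is a non-split torus. -/
theorem isNSTorus_centralizer (hodd : Odd (Fintype.card F)) (g : Matrix.SpecialLinearGroup (Fin 2) F)
    (hg : Elliptic (g : Matrix (Fin 2) (Fin 2) F)) :
    IsNSTorus (Subgroup.centralizer ({g} : Set (Matrix.SpecialLinearGroup (Fin 2) F))) := by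
  have h2 := two_ne_zero_of_odd hodd
  have ht := elliptic_trace_sq hodd g hg
  have hns := sl2_nonScalar_of_trace_sq g ht
  have hcard := sl2_card_centralizer_elliptic hodd g hg
  refine ⟨hcard, ?_, ?_, ?_, sl2_isCyclic_centralizer hodd g ht⟩
  · intro a b
    have ha := (mem_centralizer_singleton_iff g a.1).mp a.2
    have hb := (mem_centralizer_singleton_iff g b.1).mp b.2
    exact Subtype.ext (sl2_commute_of_commute hns ha.symm hb.symm)
  · rw [mem_centralizer_singleton_iff]; simp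
  · intro c hc hc1 hcm
    have hcns := sl2_nonScalar_of_ne c hc1 hcm
    rw [mem_centralizer_singleton_iff] at hc
    have heq := sl2_centralizer_eq hns hcns hc.symm
    by_contra hne
    by_cases htc : (c.1 0 0 + c.1 1 1) ^ 2 = 4
    · -- `c` is `±` unipotent, so everything commuting with it has trace `±2`
      have h4 : (c.1 0 0 + c.1 1 1 - 2) * (c.1 0 0 + c.1 1 1 + 2) = 0 := by linear_combination htc
      rcases mul_eq_zero.mp h4 with h | h
      · have htr : Cfsg.Agent.H65.SL2.tr c = 2 := by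
          unfold Cfsg.Agent.H65.SL2.tr; linear_combination h
        exact ht (Cfsg.Agent.H65.SL2.tr_sq_of_commute_unipotent c g htr hc1 hc.symm)
      · have htr : Cfsg.Agent.H65.SL2.tr (-c) = 2 := by
          unfold Cfsg.Agent.H65.SL2.tr
          rw [Cfsg.Agent.H65.SL2.neg00, Cfsg.Agent.H65.SL2.neg11]
          linear_combination -h
        have hc1' : -c ≠ 1 := by
          intro h'
          apply hcm
          rw [← h', neg_neg]
        have hcomm : -c * g = g * -c := by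
          rw [neg_mul, mul_neg, hc]
        exact ht (Cfsg.Agent.H65.SL2.tr_sq_of_commute_unipotent (-c) g htr hc1' hcomm)
    · have h1 := sl2_card_centralizer_split hodd c htc hne
      rw [heq, hcard] at h1
      omega

/-- A cyclic subgroup of order `q + 1` is a non-split torus. -/
theorem isNSTorus_of_cyclic (hodd : Odd (Fintype.card F))
    (C : Subgroup (Matrix.SpecialLinearGroup (Fin 2) F)) (hC : IsCyclic C)
    (hcard : Nat.card C = Fintype.card F + 1) : IsNSTorus C := by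
  have h2 := two_ne_zero_of_odd hodd
  obtain ⟨p, hp⟩ := CharP.exists F
  have hpp : Fact p.Prime := ⟨CharP.char_is_prime F p⟩
  obtain ⟨n, -, hqn⟩ := FiniteField.card F p
  have hq1 : 1 < Fintype.card F := Fintype.one_lt_card
  obtain ⟨g, hg⟩ := hC.exists_generator
  have hord : orderOf (g : Matrix.SpecialLinearGroup (Fin 2) F) = Fintype.card F + 1 := by
    rw [Subgroup.orderOf_coe, orderOf_eq_card_of_forall_mem_zpowers hg, hcard]
  have ht : ((g : Matrix.SpecialLinearGroup (Fin 2) F).1 0 0 +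
      (g : Matrix.SpecialLinearGroup (Fin 2) F).1 1 1) ^ 2 ≠ 4 := by
    intro h4
    have h2p := Cfsg.Agent.H65.SL2.pow_two_mul_char_eq_one p (g : Matrix.SpecialLinearGroup (Fin 2) F) h4
    have hdvd : Fintype.card F + 1 ∣ 2 * p := by
      rw [← hord]; exact orderOf_dvd_of_pow_eq_one h2p
    have hpdvd : p ∣ Fintype.card F := by
      rw [hqn]; exact dvd_pow_self p n.ne_zero
    have hcop : Nat.Coprime (Fintype.card F + 1) p := by
      rw [Nat.coprime_comm, Nat.Prime.coprime_iff_not_dvd hpp.out]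
      intro h
      have := Nat.dvd_sub h hpdvd
      rw [Nat.add_sub_cancel_left] at this
      exact hpp.out.one_lt.ne' (Nat.dvd_one.mp this)
    have := Nat.le_of_dvd (by norm_num) (hcop.dvd_of_dvd_mul_right hdvd)
    omega
  have hell : Elliptic ((g : Matrix.SpecialLinearGroup (Fin 2) F) : Matrix (Fin 2) (Fin 2) F) := by
    by_contra hne
    have h1 := sl2_card_centralizer_split hodd (g : Matrix.SpecialLinearGroup (Fin 2) F) ht hne
    have h3 := Subgroup.orderOf_dvd_natCard _ (self_mem_centralizer_singleton (g : Matrix.SpecialLinearGroup (Fin 2) F))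
    rw [h1, hord] at h3
    have := Nat.le_of_dvd (by omega) h3
    omega
  have hle : C ≤ Subgroup.centralizer ({(g : Matrix.SpecialLinearGroup (Fin 2) F)} :
      Set (Matrix.SpecialLinearGroup (Fin 2) F)) := by
    intro x hx
    obtain ⟨k, hk⟩ := Subgroup.mem_zpowers_iff.mp (hg ⟨x, hx⟩)
    have hk' : (g : Matrix.SpecialLinearGroup (Fin 2) F) ^ k = x := by
      have := congrArg Subtype.val hk
      simpa using this
    rw [mem_centralizer_singleton_iff, ← hk']
    exact ((Commute.refl _).zpow_right k).eq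
  have heq : C = Subgroup.centralizer ({(g : Matrix.SpecialLinearGroup (Fin 2) F)} :
      Set (Matrix.SpecialLinearGroup (Fin 2) F)) := by
    apply Subgroup.eq_of_le_of_card_ge hle
    rw [hcard, sl2_card_centralizer_elliptic hodd _ hell]
  rw [heq]
  exact isNSTorus_centralizer hodd _ hell

section Restr

variable {C : Subgroup (Matrix.SpecialLinearGroup (Fin 2) F)}

/-- The central element `-1` as an element of the torus. -/
def IsNSTorus.z (T : IsNSTorus C) : C := ⟨-1, T.neg_mem⟩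

theorem IsNSTorus.z_ne_one (T : IsNSTorus C) (h2 : (2 : F) ≠ 0) : T.z ≠ 1 := by
  intro h
  exact negOne_ne_one h2 (congrArg Subtype.val h)

theorem IsNSTorus.z_mul_z (T : IsNSTorus C) : T.z * T.z = 1 := by
  apply Subtype.ext
  show (-1 : Matrix.SpecialLinearGroup (Fin 2) F) * -1 = 1
  rw [neg_mul_neg, one_mul]

theorem IsNSTorus.hom_z (T : IsNSTorus C) (θ : C →* ℂˣ) :
    ((θ T.z : ℂˣ) : ℂ) = 1 ∨ ((θ T.z : ℂˣ) : ℂ) = -1 := by
  have h : ((θ T.z : ℂˣ) : ℂ) * ((θ T.z : ℂˣ) : ℂ) = 1 := by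
    rw [← Units.val_mul, ← map_mul, T.z_mul_z, map_one, Units.val_one]
  exact mul_self_eq_one_iff.mp h

theorem IsNSTorus.conj_hom_z (T : IsNSTorus C) (θ : C →* ℂˣ) :
    conj ((θ T.z : ℂˣ) : ℂ) = ((θ T.z : ℂˣ) : ℂ) := by
  rcases T.hom_z θ with h | h <;> rw [h] <;> simp

/-- Restriction of a function on `SL₂(F)` to a subgroup. -/
def resCT (C : Subgroup (Matrix.SpecialLinearGroup (Fin 2) F))
    (χ : Matrix.SpecialLinearGroup (Fin 2) F → ℂ) : C → ℂ := fun c => χ c.1

variable [Fintype C] [Fintype (C →* ℂˣ)]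

omit [Fintype F] [Fintype (C →* ℂˣ)] in
theorem fcoef_resC_nat {χ : Matrix.SpecialLinearGroup (Fin 2) F → ℂ}
    (hχ : Cfsg.IsCharacter (Matrix.SpecialLinearGroup (Fin 2) F) χ) (θ : C →* ℂˣ) :
    ∃ n : ℕ, fcoef (resCT C χ) θ = n := by
  have h1 := Cfsg.Agent.H4.isCharacter_restrict C hχ
  have h2 : Cfsg.IsCharacter C (((Units.coeHom ℂ).comp θ : C →* ℂ) : C → ℂ) := isCharacter_monoidHom _
  obtain ⟨n, hn⟩ := Cfsg.Agent.H4.classInner_isCharacter_nat h1 h2
  exact ⟨n, hn⟩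

open Classical in
/-- Fourier coefficients of a function which is constant off the centre. -/
theorem IsNSTorus.fcoef_of_const (T : IsNSTorus C) (h2 : (2 : F) ≠ 0) (f : C → ℂ) (v : ℂ)
    (hv : ∀ c : C, c ≠ 1 → c ≠ T.z → f c = v) (θ : C →* ℂˣ) :
    fcoef f θ = ((Fintype.card F : ℂ) + 1)⁻¹ * ((f 1 - v) + (f T.z - v) * ((θ T.z : ℂˣ) : ℂ)) +
      (if θ = 1 then v else 0) := by
  have hz := T.z_ne_one h2
  have hcard : (Nat.card C : ℂ) = (Fintype.card F : ℂ) + 1 := by rw [T.card]; push_cast; ring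
  have hne : (Fintype.card F : ℂ) + 1 ≠ 0 := by
    rw [← hcard]; exact card_ne_zero_of_finite
  have h1 : ∀ c : C, f c * conj ((θ c : ℂˣ) : ℂ) =
      v * conj ((θ c : ℂˣ) : ℂ) + (if c = 1 then (f 1 - v) else 0) +
        (if c = T.z then (f T.z - v) * ((θ T.z : ℂˣ) : ℂ) else 0) := by
    intro c
    by_cases hc1 : c = 1
    · subst hc1
      rw [if_pos rfl, if_neg (Ne.symm hz)]
      simp
    · by_cases hcz : c = T.z
      · subst hcz
        rw [if_neg hc1, if_pos rfl, T.conj_hom_z]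
        ring
      · rw [if_neg hc1, if_neg hcz, hv c hc1 hcz]
        ring
  unfold fcoef
  rw [Finset.sum_congr rfl fun c _ => h1 c, Finset.sum_add_distrib, Finset.sum_add_distrib,
    Finset.sum_ite_eq' Finset.univ (1 : C), Finset.sum_ite_eq' Finset.univ T.z,
    if_pos (Finset.mem_univ _), if_pos (Finset.mem_univ _), ← Finset.mul_sum, hcard]
  by_cases hθ : θ = 1
  · subst hθ
    rw [if_pos rfl, sum_conj_hom_units_one, hcard]
    field_simp
    ring
  · rw [if_neg hθ, sum_conj_hom_units_of_ne hθ]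
    ring

open Classical in
/-- Half of the characters of the torus take the value `ω` at `-1`. -/
theorem IsNSTorus.sum_hom_z (T : IsNSTorus C) (h2 : (2 : F) ≠ 0) {ω : ℂ} (hω : ω = 1 ∨ ω = -1) :
    ∑ θ : C →* ℂˣ, (if ((θ T.z : ℂˣ) : ℂ) = ω then (1 : ℂ) else 0) =
      ((Fintype.card F : ℂ) + 1) / 2 := by
  have hz := T.z_ne_one h2
  have hcard : (Nat.card C : ℂ) = (Fintype.card F : ℂ) + 1 := by rw [T.card]; push_cast; ring
  have hne : (1 : ℂ) ≠ -1 := by norm_num
  have h1 : ∀ θ : C →* ℂˣ, (if ((θ T.z : ℂˣ) : ℂ) = ω then (1 : ℂ) else 0) =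
      1 / 2 + ω / 2 * ((θ T.z : ℂˣ) : ℂ) := by
    intro θ
    rcases T.hom_z θ with h | h <;> rcases hω with rfl | rfl <;> rw [h]
    · rw [if_pos rfl]; ring
    · rw [if_neg hne]; ring
    · rw [if_neg (Ne.symm hne)]; ring
    · rw [if_pos rfl]; ring
  rw [Finset.sum_congr rfl fun θ _ => h1 θ, Finset.sum_add_distrib, ← Finset.mul_sum,
    sum_hom_units_apply T.comm, if_neg hz]
  simp only [Finset.sum_const, Finset.card_univ, nsmul_eq_mul, mul_zero, add_zero]
  rw [← Nat.card_eq_fintype_card, card_hom_units T.comm, hcard]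
  ring

omit [Fintype (C →* ℂˣ)] in
/-- Only the characters with the right central value occur in the restriction. -/
theorem IsNSTorus.fcoef_eq_zero_of_sign (T : IsNSTorus C) {χ : Matrix.SpecialLinearGroup (Fin 2) F → ℂ}
    {ω : ℂ} (hω : ω = 1 ∨ ω = -1) (hχ : ∀ g, χ (-g) = ω * χ g) (θ : C →* ℂˣ)
    (hθ : ((θ T.z : ℂˣ) : ℂ) ≠ ω) : fcoef (resCT C χ) θ = 0 := by
  have h1 : fcoef (resCT C χ) θ = ω * ((θ T.z : ℂˣ) : ℂ) * fcoef (resCT C χ) θ := by
    unfold fcoef
    have e : ∀ c : C, resCT C χ (T.z * c) * conj ((θ (T.z * c) : ℂˣ) : ℂ) =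
        ω * ((θ T.z : ℂˣ) : ℂ) * (resCT C χ c * conj ((θ c : ℂˣ) : ℂ)) := by
      intro c
      have : resCT C χ (T.z * c) = ω * resCT C χ c := by
        show χ ((-1 : Matrix.SpecialLinearGroup (Fin 2) F) * c.1) = ω * χ c.1
        rw [neg_mul, one_mul, hχ]
      rw [this, map_mul, Units.val_mul, map_mul, T.conj_hom_z]
      ring
    conv_lhs => rw [← Equiv.sum_comp (Equiv.mulLeft T.z)]
    simp only [Equiv.coe_mulLeft]
    rw [Finset.sum_congr rfl fun c _ => e c, ← Finset.mul_sum]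
    ring
  have h3 : (1 - ω * ((θ T.z : ℂˣ) : ℂ)) * fcoef (resCT C χ) θ = 0 := by linear_combination h1
  rcases mul_eq_zero.mp h3 with h | h
  · exfalso
    apply hθ
    have h' : ω * ((θ T.z : ℂˣ) : ℂ) = 1 := by linear_combination -h
    rcases hω with rfl | rfl
    · linear_combination h'
    · linear_combination -h'
  · exact h

omit [Fintype F] [Fintype (C →* ℂˣ)] in
/-- The multiplicities are invariant under inversion if the function is. -/
theorem fcoef_inv (f : C → ℂ) (hf : ∀ c : C, f c⁻¹ = f c) (θ : C →* ℂˣ) :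
    fcoef f θ⁻¹ = fcoef f θ := by
  unfold fcoef
  congr 1
  conv_rhs => rw [← Equiv.sum_comp (Equiv.inv C)]
  refine Finset.sum_congr rfl fun c _ => ?_
  rw [Equiv.inv_apply, hf, MonoidHom.inv_apply, map_inv]

end Restr

section Global

variable [Fintype (Matrix.SpecialLinearGroup (Fin 2) F)]
  [Fintype (MulChar F ℂ)] [Fintype (Cfsg.IrrCharacter (Matrix.SpecialLinearGroup (Fin 2) F))]
  {α₀ : MulChar F ℂ} {ξ₁ ξ₂ : Matrix.SpecialLinearGroup (Fin 2) F → ℂ}
  {C : Subgroup (Matrix.SpecialLinearGroup (Fin 2) F)} [Fintype C] [Fintype (C →* ℂˣ)]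

omit [Fintype F] [Fintype (Matrix.SpecialLinearGroup (Fin 2) F)] [Fintype (MulChar F ℂ)]
  [Fintype (Cfsg.IrrCharacter (Matrix.SpecialLinearGroup (Fin 2) F))] in
theorem irr_conj_one [Finite F] {χ : Matrix.SpecialLinearGroup (Fin 2) F → ℂ}
    (hirr : Cfsg.IsIrrCharacter (Matrix.SpecialLinearGroup (Fin 2) F) χ) : conj (χ 1) = χ 1 := by
  have := Cfsg.Agent.H82.irr_one_eq_charDegree ⟨χ, hirr⟩
  rw [show χ 1 = (Cfsg.charDegree χ : ℂ) from this, Complex.conj_natCast]

open Classical in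
omit [Fintype C] [Fintype (C →* ℂˣ)] in
/-- Column orthogonality on the torus: the cuspidal part. -/
theorem IsNSTorus.sum_cuspidal_norm (T : IsNSTorus C) (hodd : Odd (Fintype.card F))
    (D : QuadDecomp α₀ ξ₁ ξ₂) (c : C) (hc1 : c ≠ 1) (hcz : c ≠ T.z) :
    (∑ χ : Cfsg.IrrCharacter (Matrix.SpecialLinearGroup (Fin 2) F),
      if IsCuspidalSL χ.1 then χ.1 c.1 * conj (χ.1 c.1) else 0) = (Fintype.card F : ℂ) - 1 := by
  have hell : Elliptic (c.1 : Matrix (Fin 2) (Fin 2) F) :=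
    T.elliptic c.1 c.2 (fun h => hc1 (Subtype.ext h)) (fun h => hcz (Subtype.ext h))
  have h := SL2_odd_master D (fun f => f c.1 * conj (f c.1))
  simp only [stSL_elliptic _ hell, psSL_elliptic _ _ hell, (D.elliptic hodd _ hell).1,
    (D.elliptic hodd _ hell).2] at h
  have hcol := Cfsg.Agent.H4.column_orthogonality c.1 c.1
  rw [finsum_eq_sum_of_fintype] at hcol
  rw [hcol, card_conj_eq, if_pos (IsConj.refl _), sl2_card_centralizer_elliptic hodd _ hell] at h
  simp at h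
  linear_combination -h

open Classical in
omit [Fintype C] [Fintype (C →* ℂˣ)] in
/-- The sum of the degrees of the cuspidal characters. -/
theorem sum_cuspidal_degree (hodd : Odd (Fintype.card F)) (D : QuadDecomp α₀ ξ₁ ξ₂) :
    (∑ χ : Cfsg.IrrCharacter (Matrix.SpecialLinearGroup (Fin 2) F),
      if IsCuspidalSL χ.1 then χ.1 1 else 0) = ((Fintype.card F : ℂ) ^ 2 - 1) / 2 := by
  obtain ⟨ψ, hψ⟩ := exists_primitive_addChar (F := F)
  obtain ⟨ε, hε⟩ := FiniteField.exists_nonsquare (ringChar_ne_two_of_odd hodd)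
  have hε0 : ε ≠ 0 := by rintro rfl; exact hε IsSquare.zero
  have hψ' := isPrimitive_mulShift hψ hε0
  have h1 : ∀ χ : Cfsg.IrrCharacter (Matrix.SpecialLinearGroup (Fin 2) F),
      (if IsCuspidalSL χ.1 then χ.1 1 else 0) =
      (((Fintype.card F : ℂ) - 1) / 2) * ((if IsCuspidalSL χ.1 then mU ψ χ.1 * conj (mU ψ χ.1) else 0) +
        (if IsCuspidalSL χ.1 then mU (ψ.mulShift ε) χ.1 * conj (mU (ψ.mulShift ε) χ.1) else 0)) := by
    intro χ
    by_cases hc : IsCuspidalSL χ.1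
    · rw [if_pos hc, if_pos hc, if_pos hc,
        cuspidal_degree_eq_mU D hψ hε (Cfsg.Agent.H4.irr_isClassFunction χ) hc]
      rcases cuspidal_type hodd D hψ hε χ.2 hc with ⟨ha, hb⟩ | ⟨ha, hb⟩ | ⟨ha, hb⟩ <;> rw [ha, hb] <;> simp
    · rw [if_neg hc, if_neg hc, if_neg hc]; simp
  rw [Finset.sum_congr rfl fun χ _ => h1 χ, ← Finset.mul_sum, Finset.sum_add_distrib,
    sum_cuspidal_mU_norm hodd D hψ, sum_cuspidal_mU_norm hodd D hψ']
  ring

open Classical in
/-- Parseval on the torus, summed over the cuspidal characters. -/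
theorem IsNSTorus.sum_cuspidal_parseval (T : IsNSTorus C) (hodd : Odd (Fintype.card F))
    (D : QuadDecomp α₀ ξ₁ ξ₂) :
    (∑ χ : Cfsg.IrrCharacter (Matrix.SpecialLinearGroup (Fin 2) F),
      if IsCuspidalSL χ.1 then
        ∑ θ : C →* ℂˣ, fcoef (resCT C χ.1) θ * conj (fcoef (resCT C χ.1) θ) else 0) =
      ((Fintype.card F : ℂ) - 1) ^ 2 := by
  have h2 := two_ne_zero_of_odd hodd
  have hz := T.z_ne_one h2
  have hcard : (Nat.card C : ℂ) = (Fintype.card F : ℂ) + 1 := by rw [T.card]; push_cast; ring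
  have hne : (Fintype.card F : ℂ) + 1 ≠ 0 := by
    rw [← hcard]; exact card_ne_zero_of_finite
  have hG : ∀ c : C, (∑ χ : Cfsg.IrrCharacter (Matrix.SpecialLinearGroup (Fin 2) F),
      if IsCuspidalSL χ.1 then resCT C χ.1 c * conj (resCT C χ.1 c) else 0) =
      ((Fintype.card F : ℂ) - 1) +
        (if c = 1 then (Fintype.card F : ℂ) * ((Fintype.card F : ℂ) - 1) ^ 2 / 2 -
          ((Fintype.card F : ℂ) - 1) else 0) +
        (if c = T.z then (Fintype.card F : ℂ) * ((Fintype.card F : ℂ) - 1) ^ 2 / 2 -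
          ((Fintype.card F : ℂ) - 1) else 0) := by
    intro c
    by_cases hc1 : c = 1
    · subst hc1
      rw [if_pos rfl, if_neg (Ne.symm hz)]
      have : ∀ χ : Cfsg.IrrCharacter (Matrix.SpecialLinearGroup (Fin 2) F),
          (if IsCuspidalSL χ.1 then resCT C χ.1 1 * conj (resCT C χ.1 1) else 0) =
          (if IsCuspidalSL χ.1 then χ.1 1 ^ 2 else 0) := by
        intro χ
        by_cases hc : IsCuspidalSL χ.1
        · rw [if_pos hc, if_pos hc]
          show χ.1 1 * conj (χ.1 1) = _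
          rw [irr_conj_one χ.2]; ring
        · rw [if_neg hc, if_neg hc]
      rw [Finset.sum_congr rfl fun χ _ => this χ, sum_cuspidal_sq_SL2_odd D]
      ring
    · by_cases hcz : c = T.z
      · subst hcz
        rw [if_neg hc1, if_pos rfl]
        have : ∀ χ : Cfsg.IrrCharacter (Matrix.SpecialLinearGroup (Fin 2) F),
            (if IsCuspidalSL χ.1 then resCT C χ.1 T.z * conj (resCT C χ.1 T.z) else 0) =
            (if IsCuspidalSL χ.1 then χ.1 1 ^ 2 else 0) := by
          intro χ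
          by_cases hc : IsCuspidalSL χ.1
          · rw [if_pos hc, if_pos hc]
            show χ.1 (-1) * conj (χ.1 (-1)) = _
            obtain ⟨ω, hω, hχ⟩ := irr_neg χ.2
            have h1 := hχ 1
            rw [h1, map_mul, irr_conj_one χ.2]
            rcases hω with rfl | rfl <;> simp <;> ring
          · rw [if_neg hc, if_neg hc]
        rw [Finset.sum_congr rfl fun χ _ => this χ, sum_cuspidal_sq_SL2_odd D]
        ring
      · rw [if_neg hc1, if_neg hcz]
        have := T.sum_cuspidal_norm hodd D c hc1 hcz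
        simp only [resCT]
        rw [this]; ring
  have h1 : ∀ χ : Cfsg.IrrCharacter (Matrix.SpecialLinearGroup (Fin 2) F),
      (if IsCuspidalSL χ.1 then
        ∑ θ : C →* ℂˣ, fcoef (resCT C χ.1) θ * conj (fcoef (resCT C χ.1) θ) else 0) =
      (Nat.card C : ℂ)⁻¹ * ∑ c : C,
        (if IsCuspidalSL χ.1 then resCT C χ.1 c * conj (resCT C χ.1 c) else 0) := by
    intro χ
    by_cases hc : IsCuspidalSL χ.1
    · rw [if_pos hc, fourier_parseval T.comm]
      congr 1
      exact Finset.sum_congr rfl fun c _ => by rw [if_pos hc]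
    · simp [hc]
  rw [Finset.sum_congr rfl fun χ _ => h1 χ, ← Finset.mul_sum, Finset.sum_comm,
    Finset.sum_congr rfl fun c _ => hG c, Finset.sum_add_distrib, Finset.sum_add_distrib,
    Finset.sum_ite_eq' Finset.univ (1 : C), Finset.sum_ite_eq' Finset.univ T.z,
    if_pos (Finset.mem_univ _), if_pos (Finset.mem_univ _)]
  simp only [Finset.sum_const, Finset.card_univ, nsmul_eq_mul]
  rw [← Nat.card_eq_fintype_card, hcard]
  field_simp
  ring

theorem int_mul_succ_nonneg (x : ℤ) : 0 ≤ x * (x + 1) := by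
  rcases le_or_gt 0 x with h | h
  · exact mul_nonneg h (by omega)
  · nlinarith

open Classical in
/-- The defect of a cuspidal character on the torus: a natural number whose vanishing forces
the multiplicities of the restriction to be as small as possible. -/
theorem IsNSTorus.defect (T : IsNSTorus C) (hodd : Odd (Fintype.card F)) (D : QuadDecomp α₀ ξ₁ ξ₂)
    {χ : Matrix.SpecialLinearGroup (Fin 2) F → ℂ}
    (hirr : Cfsg.IsIrrCharacter (Matrix.SpecialLinearGroup (Fin 2) F) χ) (hc : IsCuspidalSL χ) :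
    ∃ e : ℕ, (e : ℂ) = (∑ θ : C →* ℂˣ, fcoef (resCT C χ) θ * conj (fcoef (resCT C χ) θ)) -
        (2 * χ 1 ^ 2 * ((Fintype.card F : ℂ) - 3) / ((Fintype.card F : ℂ) - 1) ^ 2 +
          2 * χ 1 / ((Fintype.card F : ℂ) - 1)) ∧
      (e = 0 → ∀ (k : ℕ) (ω : ℂ), χ 1 = k * (((Fintype.card F : ℂ) - 1) / 2) → (ω = 1 ∨ ω = -1) →
        (∀ g, χ (-g) = ω * χ g) → ∀ θ : C →* ℂˣ, ∃ n : ℕ, fcoef (resCT C χ) θ = n ∧
          (((θ T.z : ℂˣ) : ℂ) ≠ ω → n = 0) ∧ (((θ T.z : ℂˣ) : ℂ) = ω → n = k ∨ n + 1 = k)) := by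
  have h2 := two_ne_zero_of_odd hodd
  have hq1 := card_sub_one_ne_zero (F := F)
  obtain ⟨k, hk12, hk⟩ : ∃ k : ℕ, (k = 1 ∨ k = 2) ∧ χ 1 = k * (((Fintype.card F : ℂ) - 1) / 2) := by
    obtain ⟨ψ, hψ⟩ := exists_primitive_addChar (F := F)
    obtain ⟨ε, hε⟩ := FiniteField.exists_nonsquare (ringChar_ne_two_of_odd hodd)
    rcases cuspidal_values hodd D hψ hε hirr hc with ⟨-, -, h1, -⟩ | ⟨-, -, h1, -⟩ | ⟨-, -, h1, -⟩
    · exact ⟨2, Or.inr rfl, by rw [h1]; push_cast; ring⟩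
    · exact ⟨1, Or.inl rfl, by rw [h1]; push_cast; ring⟩
    · exact ⟨1, Or.inl rfl, by rw [h1]; push_cast; ring⟩
  obtain ⟨ω, hω1, hω⟩ := irr_neg hirr
  choose n hn using fun θ : C →* ℂˣ =>
    fcoef_resC_nat (Cfsg.Agent.H4.isCharacter_of_isIrrCharacter hirr) θ
  have hsupp : ∀ θ : C →* ℂˣ, ((θ T.z : ℂˣ) : ℂ) ≠ ω → n θ = 0 := by
    intro θ hθ
    have := T.fcoef_eq_zero_of_sign hω1 hω θ hθ
    rw [hn] at this
    exact_mod_cast this
  have hsum : ∑ θ : C →* ℂˣ, (n θ : ℂ) = χ 1 := by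
    have := fourier_inversion T.comm (resCT C χ) 1
    simp only [map_one, Units.val_one, mul_one, hn] at this
    exact this
  have hcount := T.sum_hom_z h2 hω1
  set eZ : ℤ := ∑ θ : C →* ℂˣ,
    (if ((θ T.z : ℂˣ) : ℂ) = ω then ((n θ : ℤ) - k) * ((n θ : ℤ) - k + 1) else 0) with heZ
  have hnonneg : ∀ θ : C →* ℂˣ, 0 ≤
      (if ((θ T.z : ℂˣ) : ℂ) = ω then ((n θ : ℤ) - k) * ((n θ : ℤ) - k + 1) else 0) := by
    intro θ
    split_ifs
    · exact int_mul_succ_nonneg _
    · exact le_refl _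
  have heZ0 : 0 ≤ eZ := Finset.sum_nonneg fun θ _ => hnonneg θ
  have hcast : (eZ : ℂ) = ∑ θ : C →* ℂˣ, (n θ : ℂ) ^ 2 - (2 * (k : ℂ) - 1) * χ 1 +
      ((k : ℂ) ^ 2 - k) * (((Fintype.card F : ℂ) + 1) / 2) := by
    rw [heZ, Int.cast_sum]
    have h1 : ∀ θ : C →* ℂˣ,
        (((if ((θ T.z : ℂˣ) : ℂ) = ω then ((n θ : ℤ) - k) * ((n θ : ℤ) - k + 1) else 0 : ℤ)) : ℂ) =
        (n θ : ℂ) ^ 2 - (2 * (k : ℂ) - 1) * (n θ : ℂ) +
          ((k : ℂ) ^ 2 - k) * (if ((θ T.z : ℂˣ) : ℂ) = ω then (1 : ℂ) else 0) := by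
      intro θ
      by_cases hθ : ((θ T.z : ℂˣ) : ℂ) = ω
      · rw [if_pos hθ, if_pos hθ]
        push_cast
        ring
      · rw [if_neg hθ, if_neg hθ, hsupp θ hθ]
        simp
    rw [Finset.sum_congr rfl fun θ _ => h1 θ, Finset.sum_add_distrib, Finset.sum_sub_distrib,
      ← Finset.mul_sum, ← Finset.mul_sum, hsum, hcount]
  refine ⟨eZ.toNat, ?_, ?_⟩
  · have h1 : ((eZ.toNat : ℕ) : ℂ) = (eZ : ℂ) := by
      have := Int.toNat_of_nonneg heZ0
      exact_mod_cast congrArg (Int.cast : ℤ → ℂ) this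
    have hpars : ∑ θ : C →* ℂˣ, fcoef (resCT C χ) θ * conj (fcoef (resCT C χ) θ) =
        ∑ θ : C →* ℂˣ, (n θ : ℂ) ^ 2 := by
      refine Finset.sum_congr rfl fun θ _ => ?_
      rw [hn, Complex.conj_natCast]; ring
    rw [h1, hcast, hpars, hk]
    field_simp
    ring
  · intro he k' ω' hk' hω1' hω' θ
    have hk0 : (k : ℂ) ≠ 0 := by
      rcases hk12 with rfl | rfl <;> norm_num
    have hχ1 : χ 1 ≠ 0 := by
      rw [hk]
      exact mul_ne_zero hk0 (div_ne_zero hq1 two_ne_zero)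
    have hkk : k' = k := by
      have h1 : (k' : ℂ) * (((Fintype.card F : ℂ) - 1) / 2) = k * (((Fintype.card F : ℂ) - 1) / 2) := by
        rw [← hk, ← hk']
      have h3 := mul_right_cancel₀ (div_ne_zero hq1 two_ne_zero) h1
      exact_mod_cast h3
    have hωω : ω' = ω := by
      have h1 := hω 1
      have h3 := hω' 1
      rw [h1] at h3
      exact (mul_right_cancel₀ hχ1 h3).symm
    subst hkk
    subst hωω
    refine ⟨n θ, hn θ, hsupp θ, fun hθ => ?_⟩
    have heZ' : eZ = 0 := by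
      have := Int.toNat_eq_zero.mp he
      omega
    have hterm := (Finset.sum_eq_zero_iff_of_nonneg (fun θ _ => hnonneg θ)).mp heZ' θ (Finset.mem_univ θ)
    rw [if_pos hθ] at hterm
    rcases mul_eq_zero.mp hterm with h | h
    · left; omega
    · right; omega

open Classical in
/-- The multiplicities of the characters of the torus in a cuspidal character. -/
theorem IsNSTorus.pattern (T : IsNSTorus C) (hodd : Odd (Fintype.card F)) (D : QuadDecomp α₀ ξ₁ ξ₂)
    {χ : Matrix.SpecialLinearGroup (Fin 2) F → ℂ}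
    (hirr : Cfsg.IsIrrCharacter (Matrix.SpecialLinearGroup (Fin 2) F) χ) (hc : IsCuspidalSL χ)
    (k : ℕ) (ω : ℂ) (hk : χ 1 = k * (((Fintype.card F : ℂ) - 1) / 2)) (hω1 : ω = 1 ∨ ω = -1)
    (hω : ∀ g, χ (-g) = ω * χ g) (θ : C →* ℂˣ) :
    ∃ n : ℕ, fcoef (resCT C χ) θ = n ∧ (((θ T.z : ℂˣ) : ℂ) ≠ ω → n = 0) ∧
      (((θ T.z : ℂˣ) : ℂ) = ω → n = k ∨ n + 1 = k) := by
  have hq1 := card_sub_one_ne_zero (F := F)
  have h1 : ∀ χ' : Cfsg.IrrCharacter (Matrix.SpecialLinearGroup (Fin 2) F), ∃ e : ℕ,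
      (e : ℂ) = (if IsCuspidalSL χ'.1 then
        (∑ θ : C →* ℂˣ, fcoef (resCT C χ'.1) θ * conj (fcoef (resCT C χ'.1) θ)) -
        (2 * χ'.1 1 ^ 2 * ((Fintype.card F : ℂ) - 3) / ((Fintype.card F : ℂ) - 1) ^ 2 +
          2 * χ'.1 1 / ((Fintype.card F : ℂ) - 1)) else 0) ∧
      (IsCuspidalSL χ'.1 → e = 0 → ∀ (k : ℕ) (ω : ℂ),
        χ'.1 1 = k * (((Fintype.card F : ℂ) - 1) / 2) → (ω = 1 ∨ ω = -1) →
        (∀ g, χ'.1 (-g) = ω * χ'.1 g) → ∀ θ : C →* ℂˣ, ∃ n : ℕ, fcoef (resCT C χ'.1) θ = n ∧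
          (((θ T.z : ℂˣ) : ℂ) ≠ ω → n = 0) ∧ (((θ T.z : ℂˣ) : ℂ) = ω → n = k ∨ n + 1 = k)) := by
    intro χ'
    by_cases hc' : IsCuspidalSL χ'.1
    · obtain ⟨e, he, hp⟩ := T.defect hodd D χ'.2 hc'
      exact ⟨e, by rw [if_pos hc']; exact he, fun _ => hp⟩
    · exact ⟨0, by rw [if_neg hc']; simp, fun h => absurd h hc'⟩
  choose E hE hP using h1
  have htot : ∑ χ' : Cfsg.IrrCharacter (Matrix.SpecialLinearGroup (Fin 2) F), (E χ' : ℂ) = 0 := by
    rw [Finset.sum_congr rfl fun χ' _ => hE χ']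
    have h3 : ∀ χ' : Cfsg.IrrCharacter (Matrix.SpecialLinearGroup (Fin 2) F),
        (if IsCuspidalSL χ'.1 then
          (∑ θ : C →* ℂˣ, fcoef (resCT C χ'.1) θ * conj (fcoef (resCT C χ'.1) θ)) -
          (2 * χ'.1 1 ^ 2 * ((Fintype.card F : ℂ) - 3) / ((Fintype.card F : ℂ) - 1) ^ 2 +
            2 * χ'.1 1 / ((Fintype.card F : ℂ) - 1)) else 0) =
        (if IsCuspidalSL χ'.1 then
          ∑ θ : C →* ℂˣ, fcoef (resCT C χ'.1) θ * conj (fcoef (resCT C χ'.1) θ) else 0) -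
        (2 * ((Fintype.card F : ℂ) - 3) / ((Fintype.card F : ℂ) - 1) ^ 2) *
          (if IsCuspidalSL χ'.1 then χ'.1 1 ^ 2 else 0) -
        (2 / ((Fintype.card F : ℂ) - 1)) * (if IsCuspidalSL χ'.1 then χ'.1 1 else 0) := by
      intro χ'
      by_cases hc' : IsCuspidalSL χ'.1
      · simp only [if_pos hc']; ring
      · simp only [if_neg hc']; ring
    rw [Finset.sum_congr rfl fun χ' _ => h3 χ', Finset.sum_sub_distrib, Finset.sum_sub_distrib,
      ← Finset.mul_sum, ← Finset.mul_sum, T.sum_cuspidal_parseval hodd D, sum_cuspidal_sq_SL2_odd D,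
      sum_cuspidal_degree hodd D]
    field_simp
    ring
  have h4 : ∑ χ' : Cfsg.IrrCharacter (Matrix.SpecialLinearGroup (Fin 2) F), E χ' = 0 := by
    exact_mod_cast htot
  have h5 := (Finset.sum_eq_zero_iff.mp h4) ⟨χ, hirr⟩ (Finset.mem_univ _)
  exact hP ⟨χ, hirr⟩ hc h5 k ω hk hω1 hω θ

end Global

end Cfsg.Agent.H44
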