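import Cfsg.Agent.H44.SL2TorusChar
import Cfsg.Agent.H44.QuadHom

/-!
# The cuspidal characters of SL₂(F) on a non-split torus: existence and the trivial character
(helper44)
-/

set_option autoImplicit false

namespace Cfsg.Agent.H44

open Matrix
open scoped ComplexConjugate

variable {F : Type*} [Field F] [Fintype F] [Fintype (Matrix.SpecialLinearGroup (Fin 2) F)]
  [Fintype (MulChar F ℂ)] [Fintype (Cfsg.IrrCharacter (Matrix.SpecialLinearGroup (Fin 2) F))]
  {α₀ : MulChar F ℂ} {ξ₁ ξ₂ : Matrix.SpecialLinearGroup (Fin 2) F → ℂ}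
  {C : Subgroup (Matrix.SpecialLinearGroup (Fin 2) F)} [Fintype C] [Fintype (C →* ℂˣ)]

omit [Fintype (MulChar F ℂ)] [Fintype (C →* ℂˣ)] in
/-- The regular character restricted to the torus. -/
theorem IsNSTorus.sum_irr_fcoef (T : IsNSTorus C) (θ : C →* ℂˣ) :
    ∑ χ : Cfsg.IrrCharacter (Matrix.SpecialLinearGroup (Fin 2) F),
      fcoef (resCT C χ.1) θ * conj (χ.1 1) = (Fintype.card F : ℂ) * ((Fintype.card F : ℂ) - 1) := by
  classical
  have hcard : (Nat.card C : ℂ) = (Fintype.card F : ℂ) + 1 := by rw [T.card]; push_cast; ring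
  have hne : (Fintype.card F : ℂ) + 1 ≠ 0 := by
    rw [← hcard]; exact card_ne_zero_of_finite
  have hcol : ∀ c : C, ∑ χ : Cfsg.IrrCharacter (Matrix.SpecialLinearGroup (Fin 2) F),
      χ.1 c.1 * conj (χ.1 1) = if c = 1 then
        (Nat.card (Matrix.SpecialLinearGroup (Fin 2) F) : ℂ) else 0 := by
    intro c
    have h := Cfsg.Agent.H4.column_orthogonality c.1 (1 : Matrix.SpecialLinearGroup (Fin 2) F)
    rw [finsum_eq_sum_of_fintype] at h
    rw [h]
    by_cases hc : c = 1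
    · rw [if_pos hc, hc]
      congr 1
      exact Nat.card_congr (Equiv.subtypeUnivEquiv fun x => by simp)
    · rw [if_neg hc]
      have : IsEmpty {x : Matrix.SpecialLinearGroup (Fin 2) F // x * c.1 * x⁻¹ = 1} := by
        refine ⟨fun x => hc (Subtype.ext ?_)⟩
        have h1 := x.2
        have h3 : c.1 = x.1⁻¹ * (x.1 * c.1 * x.1⁻¹) * x.1 := by group
        rw [h3, h1]
        simp
      rw [Nat.card_of_isEmpty]
      simp
  have h1 : ∀ χ : Cfsg.IrrCharacter (Matrix.SpecialLinearGroup (Fin 2) F),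
      fcoef (resCT C χ.1) θ * conj (χ.1 1) =
      (Nat.card C : ℂ)⁻¹ * ∑ c : C, conj ((θ c : ℂˣ) : ℂ) * (χ.1 c.1 * conj (χ.1 1)) := by
    intro χ
    unfold fcoef resCT
    rw [mul_assoc, Finset.sum_mul]
    congr 1
    refine Finset.sum_congr rfl fun c _ => ?_
    ring
  rw [Finset.sum_congr rfl fun χ _ => h1 χ, ← Finset.mul_sum, Finset.sum_comm]
  simp_rw [← Finset.mul_sum, hcol]
  simp only [mul_ite, mul_zero, Finset.sum_ite_eq', Finset.mem_univ, if_true, map_one, Units.val_one,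
    one_mul]
  rw [hcard, card_SL2]
  have hq : 1 ≤ Fintype.card F ^ 2 := Nat.one_le_pow _ _ Fintype.card_pos
  push_cast [Nat.cast_sub hq]
  field_simp
  ring

open Classical in
/-- The cuspidal part of the regular character restricted to the torus. -/
theorem IsNSTorus.sum_cuspidal_fcoef (T : IsNSTorus C) (hodd : Odd (Fintype.card F))
    (D : QuadDecomp α₀ ξ₁ ξ₂) (θ : C →* ℂˣ) :
    (∑ χ : Cfsg.IrrCharacter (Matrix.SpecialLinearGroup (Fin 2) F),
      if IsCuspidalSL χ.1 then fcoef (resCT C χ.1) θ * conj (χ.1 1) else 0) =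
      ((Fintype.card F : ℂ) - 1) * ((Fintype.card F : ℂ) - 2 - ((θ T.z : ℂˣ) : ℂ)) / 2 +
        (if θ = 1 then (Fintype.card F : ℂ) - 1 else 0) := by
  have h2 := two_ne_zero_of_odd hodd
  have hne1 : (-1 : F) ≠ 1 := by
    intro h
    apply h2
    linear_combination -h
  have hq1 : (Fintype.card F : ℂ) + 1 ≠ 0 := by
    have : (Nat.card C : ℂ) = (Fintype.card F : ℂ) + 1 := by rw [T.card]; push_cast; ring
    rw [← this]; exact card_ne_zero_of_finite
  have hell : ∀ c : C, c ≠ 1 → c ≠ T.z → Elliptic (c.1 : Matrix (Fin 2) (Fin 2) F) :=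
    fun c hc1 hcz => T.elliptic c.1 c.2 (fun h => hc1 (Subtype.ext h)) (fun h => hcz (Subtype.ext h))
  -- the Fourier coefficients of the non-cuspidal characters
  have f1 : fcoef (resCT C (fun _ => (1 : ℂ))) θ = (if θ = 1 then (1 : ℂ) else 0) := by
    rw [T.fcoef_of_const h2 (resCT C (fun _ => (1 : ℂ))) 1 (fun c _ _ => rfl)]
    simp [resCT]
  have f2 : fcoef (resCT C stSL) θ = 1 + ((θ T.z : ℂˣ) : ℂ) + (if θ = 1 then (-1 : ℂ) else 0) := by
    rw [T.fcoef_of_const h2 (resCT C stSL) (-1) (fun c hc1 hcz => stSL_elliptic _ (hell c hc1 hcz))]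
    have e1 : resCT C stSL 1 = (Fintype.card F : ℂ) := stSL_one
    have e2 : resCT C stSL T.z = (Fintype.card F : ℂ) := stSL_negOne
    rw [e1, e2]
    field_simp
    ring
  have f3 : ∀ α : MulChar F ℂ, fcoef (resCT C (psSL α)) θ = 1 + α (-1) * ((θ T.z : ℂˣ) : ℂ) := by
    intro α
    rw [T.fcoef_of_const h2 (resCT C (psSL α)) 0 (fun c hc1 hcz => psSL_elliptic _ _ (hell c hc1 hcz))]
    have e1 : resCT C (psSL α) 1 = (Fintype.card F : ℂ) + 1 := psSL_one α
    have e2 : resCT C (psSL α) T.z = ((Fintype.card F : ℂ) + 1) * α (-1) := psSL_negOne α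
    rw [e1, e2]
    simp only [sub_zero, ite_self, add_zero]
    field_simp
  have f4 : fcoef (resCT C ξ₁) θ = (1 + α₀ (-1) * ((θ T.z : ℂˣ) : ℂ)) / 2 := by
    rw [T.fcoef_of_const h2 (resCT C ξ₁) 0 (fun c hc1 hcz => (D.elliptic hodd _ (hell c hc1 hcz)).1)]
    have e1 : resCT C ξ₁ 1 = ((Fintype.card F : ℂ) + 1) / 2 := D.deg₁
    have e2 : resCT C ξ₁ T.z = α₀ (-1) * (((Fintype.card F : ℂ) + 1) / 2) := D.negOne.1
    rw [e1, e2]
    simp only [sub_zero, ite_self, add_zero]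
    field_simp
  have f5 : fcoef (resCT C ξ₂) θ = (1 + α₀ (-1) * ((θ T.z : ℂˣ) : ℂ)) / 2 := by
    rw [T.fcoef_of_const h2 (resCT C ξ₂) 0 (fun c hc1 hcz => (D.elliptic hodd _ (hell c hc1 hcz)).2)]
    have e1 : resCT C ξ₂ 1 = ((Fintype.card F : ℂ) + 1) / 2 := D.deg₂
    have e2 : resCT C ξ₂ T.z = α₀ (-1) * (((Fintype.card F : ℂ) + 1) / 2) := D.negOne.2
    rw [e1, e2]
    simp only [sub_zero, ite_self, add_zero]
    field_simp
  have h := SL2_odd_master D (fun f => fcoef (resCT C f) θ * conj (f 1))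
  simp only [f1, f2, f3, f4, f5, stSL_one, psSL_one, D.deg₁, D.deg₂] at h
  rw [T.sum_irr_fcoef θ] at h
  have h3 : ∀ α : MulChar F ℂ, (if α ^ 2 ≠ 1 then
      (1 + α (-1) * ((θ T.z : ℂˣ) : ℂ)) * conj ((Fintype.card F : ℂ) + 1) / 2 else 0) =
      (if α ^ 2 ≠ 1 then (((Fintype.card F : ℂ) + 1) / 2) else 0) +
      (if α ^ 2 ≠ 1 then (((θ T.z : ℂˣ) : ℂ) * ((Fintype.card F : ℂ) + 1) / 2) * α (-1) else 0) := by
    intro α
    have : conj ((Fintype.card F : ℂ) + 1) = (Fintype.card F : ℂ) + 1 := by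
      rw [map_add, Complex.conj_natCast, map_one]
    rw [this]
    by_cases hα : α ^ 2 ≠ 1
    · rw [if_pos hα, if_pos hα, if_pos hα]; ring
    · rw [if_neg hα, if_neg hα, if_neg hα]; ring
  rw [Finset.sum_congr rfl fun α _ => h3 α, Finset.sum_add_distrib, sum_ite_sq_ne_one D.sq D.ne_one,
    sum_ite_sq_ne_one_apply D.sq D.ne_one (-1) hne1 (neg_ne_zero.mpr one_ne_zero)] at h
  have hc1 : conj (1 : ℂ) = 1 := map_one _
  have hc2 : conj ((Fintype.card F : ℂ)) = (Fintype.card F : ℂ) := Complex.conj_natCast _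
  have hc3 : conj (((Fintype.card F : ℂ) + 1) / 2) = ((Fintype.card F : ℂ) + 1) / 2 := by
    rw [map_div₀, map_add, Complex.conj_natCast, map_one, Complex.conj_ofNat]
  rw [hc1, hc2, hc3] at h
  by_cases hθ : θ = 1
  · simp only [hθ, if_true] at h ⊢
    linear_combination -h
  · simp only [hθ, if_false] at h ⊢
    linear_combination -h

open Classical in
omit [Fintype C] [Fintype (C →* ℂˣ)] in
theorem sum_cuspidal_B (hodd : Odd (Fintype.card F)) (D : QuadDecomp α₀ ξ₁ ξ₂) (t : ℂ) :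
    (∑ χ : Cfsg.IrrCharacter (Matrix.SpecialLinearGroup (Fin 2) F),
      if IsCuspidalSL χ.1 then (χ.1 1 ^ 2 + t * (χ.1 (-1) * conj (χ.1 1))) /
        ((Fintype.card F : ℂ) - 1) else 0) =
      ((Fintype.card F : ℂ) - 1) * ((Fintype.card F : ℂ) - t) / 2 := by
  have hq1 := card_sub_one_ne_zero (F := F)
  have h1 : ∀ χ : Cfsg.IrrCharacter (Matrix.SpecialLinearGroup (Fin 2) F),
      (if IsCuspidalSL χ.1 then (χ.1 1 ^ 2 + t * (χ.1 (-1) * conj (χ.1 1))) /
        ((Fintype.card F : ℂ) - 1) else 0) =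
      ((Fintype.card F : ℂ) - 1)⁻¹ * (if IsCuspidalSL χ.1 then χ.1 1 ^ 2 else 0) +
      (t * ((Fintype.card F : ℂ) - 1)⁻¹) * (if IsCuspidalSL χ.1 then χ.1 (-1) * conj (χ.1 1) else 0) := by
    intro χ
    by_cases hc : IsCuspidalSL χ.1
    · simp only [if_pos hc]; field_simp
    · simp only [if_neg hc]; ring
  rw [Finset.sum_congr rfl fun χ _ => h1 χ, Finset.sum_add_distrib, ← Finset.mul_sum, ← Finset.mul_sum,
    sum_cuspidal_sq_SL2_odd D, sum_cuspidal_negOne hodd D]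
  field_simp
  ring

end Cfsg.Agent.H44
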