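import Cfsg.Agent.H44.SL2TorusCharB

/-!
# The cuspidal characters of SL₂(F) on a non-split torus: values (helper44)
-/

set_option autoImplicit false

namespace Cfsg.Agent.H44

open Matrix
open scoped ComplexConjugate

variable {F : Type*} [Field F] [Fintype F] [Fintype (Matrix.SpecialLinearGroup (Fin 2) F)]
  [Fintype (MulChar F ℂ)] [Fintype (Cfsg.IrrCharacter (Matrix.SpecialLinearGroup (Fin 2) F))]
  {α₀ : MulChar F ℂ} {ξ₁ ξ₂ : Matrix.SpecialLinearGroup (Fin 2) F → ℂ}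
  {C : Subgroup (Matrix.SpecialLinearGroup (Fin 2) F)} [Fintype C] [Fintype (C →* ℂˣ)]

omit [Fintype C] [Fintype (C →* ℂˣ)] in
/-- The degree of a cuspidal irreducible character. -/
theorem cuspidal_degree_cases (hodd : Odd (Fintype.card F)) (D : QuadDecomp α₀ ξ₁ ξ₂)
    {χ : Matrix.SpecialLinearGroup (Fin 2) F → ℂ}
    (hirr : Cfsg.IsIrrCharacter (Matrix.SpecialLinearGroup (Fin 2) F) χ) (hc : IsCuspidalSL χ) :
    ∃ k : ℕ, (k = 1 ∨ k = 2) ∧ χ 1 = k * (((Fintype.card F : ℂ) - 1) / 2) := by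
  obtain ⟨ψ, hψ⟩ := exists_primitive_addChar (F := F)
  obtain ⟨ε, hε⟩ := FiniteField.exists_nonsquare (ringChar_ne_two_of_odd hodd)
  rcases cuspidal_values hodd D hψ hε hirr hc with ⟨-, -, h1, -⟩ | ⟨-, -, h1, -⟩ | ⟨-, -, h1, -⟩
  · exact ⟨2, Or.inr rfl, by rw [h1]; push_cast; ring⟩
  · exact ⟨1, Or.inl rfl, by rw [h1]; push_cast; ring⟩
  · exact ⟨1, Or.inl rfl, by rw [h1]; push_cast; ring⟩

open Classical in
/-- The defect of a cuspidal character at a character of the torus. -/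
theorem IsNSTorus.tdefect (T : IsNSTorus C) (hodd : Odd (Fintype.card F)) (D : QuadDecomp α₀ ξ₁ ξ₂)
    {χ : Matrix.SpecialLinearGroup (Fin 2) F → ℂ}
    (hirr : Cfsg.IsIrrCharacter (Matrix.SpecialLinearGroup (Fin 2) F) χ) (hc : IsCuspidalSL χ)
    (θ : C →* ℂˣ) :
    ∃ e : ℕ, (e : ℂ) = (χ 1 ^ 2 + ((θ T.z : ℂˣ) : ℂ) * (χ (-1) * conj (χ 1))) /
          ((Fintype.card F : ℂ) - 1) - fcoef (resCT C χ) θ * conj (χ 1) ∧
      (e = 0 → ∀ (k : ℕ) (ω : ℂ), χ 1 = k * (((Fintype.card F : ℂ) - 1) / 2) → (ω = 1 ∨ ω = -1) →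
        (∀ g, χ (-g) = ω * χ g) → ((θ T.z : ℂˣ) : ℂ) = ω → fcoef (resCT C χ) θ = k) ∧
      (e ≠ 0 → ∃ k : ℕ, (k = 1 ∨ k = 2) ∧ χ 1 = k * (((Fintype.card F : ℂ) - 1) / 2) ∧
        (∀ g, χ (-g) = ((θ T.z : ℂˣ) : ℂ) * χ g) ∧ fcoef (resCT C χ) θ + 1 = k) := by
  have h2 := two_ne_zero_of_odd hodd
  have hq1 := card_sub_one_ne_zero (F := F)
  obtain ⟨k, hk12, hk⟩ := cuspidal_degree_cases hodd D hirr hc
  obtain ⟨ω, hω1, hω⟩ := irr_neg hirr
  obtain ⟨n, hn, hn0, hn1⟩ := T.pattern hodd D hirr hc k ω hk hω1 hω θ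
  have hdeg : χ 1 = (Cfsg.charDegree χ : ℂ) := Cfsg.Agent.H82.irr_one_eq_charDegree ⟨χ, hirr⟩
  have hk0 : (k : ℂ) ≠ 0 := by rcases hk12 with rfl | rfl <;> norm_num
  have hχ1 : χ 1 ≠ 0 := by
    rw [hk]; exact mul_ne_zero hk0 (div_ne_zero hq1 two_ne_zero)
  have hdeg0 : Cfsg.charDegree χ ≠ 0 := by
    intro h
    rw [h, Nat.cast_zero] at hdeg
    exact hχ1 hdeg
  have hconj : conj (χ 1) = χ 1 := irr_conj_one hirr
  have hneg1 : χ (-1) = ω * χ 1 := hω 1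
  have hform : (χ 1 ^ 2 + ((θ T.z : ℂˣ) : ℂ) * (χ (-1) * conj (χ 1))) /
      ((Fintype.card F : ℂ) - 1) - fcoef (resCT C χ) θ * conj (χ 1) =
      χ 1 * ((k : ℂ) * (1 + ((θ T.z : ℂˣ) : ℂ) * ω) / 2 - n) := by
    rw [hconj, hneg1, hn]
    have e1 : χ 1 ^ 2 = χ 1 * ((k : ℂ) * (((Fintype.card F : ℂ) - 1) / 2)) := by
      rw [← hk]; ring
    have e2 : (χ 1 ^ 2 + ((θ T.z : ℂˣ) : ℂ) * (ω * χ 1 * χ 1)) =
        χ 1 ^ 2 * (1 + ((θ T.z : ℂˣ) : ℂ) * ω) := by ring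
    rw [e2, e1]
    field_simp
  have hωω : ω * ω = 1 := by rcases hω1 with rfl | rfl <;> norm_num
  refine ⟨if (((θ T.z : ℂˣ) : ℂ) = ω ∧ n + 1 = k) then Cfsg.charDegree χ else 0, ?_, ?_, ?_⟩
  · rw [hform]
    by_cases hθ : ((θ T.z : ℂˣ) : ℂ) = ω
    · rcases hn1 hθ with h | h
      · have hne : ¬ (((θ T.z : ℂˣ) : ℂ) = ω ∧ n + 1 = k) := fun h' => by omega
        rw [if_neg hne, hθ, h, hωω]
        push_cast
        ring
      · rw [if_pos ⟨hθ, h⟩, ← hdeg, hθ, ← h, hωω]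
        push_cast
        ring
    · have hn' := hn0 hθ
      rw [if_neg (fun h => hθ h.1), hn']
      have hm : ((θ T.z : ℂˣ) : ℂ) * ω = -1 := by
        rcases T.hom_z θ with h | h <;> rcases hω1 with rfl | rfl
        · exact absurd h hθ
        · rw [h]; ring
        · rw [h]; ring
        · exact absurd h hθ
      rw [hm]
      push_cast
      ring
  · intro he k' ω' hk' hω1' hω' hθ
    have hkk : k' = k := by
      have h1 : (k' : ℂ) * (((Fintype.card F : ℂ) - 1) / 2) = k * (((Fintype.card F : ℂ) - 1) / 2) := by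
        rw [← hk, ← hk']
      have h3 := mul_right_cancel₀ (div_ne_zero hq1 two_ne_zero) h1
      exact_mod_cast h3
    have hωω' : ω' = ω := by
      have h1 := hω 1
      have h3 := hω' 1
      rw [h1] at h3
      exact (mul_right_cancel₀ hχ1 h3).symm
    subst hkk
    subst hωω'
    have hne : ¬ (((θ T.z : ℂˣ) : ℂ) = ω' ∧ n + 1 = k') := by
      intro h'
      rw [if_pos h'] at he
      exact hdeg0 he
    rcases hn1 hθ with h | h
    · rw [hn, h]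
    · exact absurd ⟨hθ, h⟩ hne
  · intro he
    have hpos : (((θ T.z : ℂˣ) : ℂ) = ω ∧ n + 1 = k) := by
      by_contra h'
      exact he (if_neg h')
    refine ⟨k, hk12, hk, ?_, ?_⟩
    · rw [hpos.1]; exact hω
    · rw [hn, ← hpos.2]; push_cast; ring

open Classical in
/-- The defects at a character of the torus, as a family indexed by the irreducible characters. -/
theorem IsNSTorus.tdefect_family (T : IsNSTorus C) (hodd : Odd (Fintype.card F))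
    (D : QuadDecomp α₀ ξ₁ ξ₂) (θ : C →* ℂˣ) :
    ∃ E : Cfsg.IrrCharacter (Matrix.SpecialLinearGroup (Fin 2) F) → ℕ,
      (∑ χ : Cfsg.IrrCharacter (Matrix.SpecialLinearGroup (Fin 2) F), (E χ : ℂ)) =
        (if θ = 1 then 0 else (Fintype.card F : ℂ) - 1) ∧
      (∀ χ : Cfsg.IrrCharacter (Matrix.SpecialLinearGroup (Fin 2) F), IsCuspidalSL χ.1 → E χ = 0 →
        ∀ (k : ℕ) (ω : ℂ), χ.1 1 = k * (((Fintype.card F : ℂ) - 1) / 2) → (ω = 1 ∨ ω = -1) →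
        (∀ g, χ.1 (-g) = ω * χ.1 g) → ((θ T.z : ℂˣ) : ℂ) = ω → fcoef (resCT C χ.1) θ = k) ∧
      (∀ χ : Cfsg.IrrCharacter (Matrix.SpecialLinearGroup (Fin 2) F), E χ ≠ 0 →
        IsCuspidalSL χ.1 ∧ ∃ k : ℕ, (k = 1 ∨ k = 2) ∧
          χ.1 1 = k * (((Fintype.card F : ℂ) - 1) / 2) ∧
          (∀ g, χ.1 (-g) = ((θ T.z : ℂˣ) : ℂ) * χ.1 g) ∧ fcoef (resCT C χ.1) θ + 1 = k) := by
  have hq1 := card_sub_one_ne_zero (F := F)
  have h1 : ∀ χ : Cfsg.IrrCharacter (Matrix.SpecialLinearGroup (Fin 2) F), ∃ e : ℕ,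
      (e : ℂ) = (if IsCuspidalSL χ.1 then
        (χ.1 1 ^ 2 + ((θ T.z : ℂˣ) : ℂ) * (χ.1 (-1) * conj (χ.1 1))) /
          ((Fintype.card F : ℂ) - 1) - fcoef (resCT C χ.1) θ * conj (χ.1 1) else 0) ∧
      (IsCuspidalSL χ.1 → e = 0 → ∀ (k : ℕ) (ω : ℂ),
        χ.1 1 = k * (((Fintype.card F : ℂ) - 1) / 2) → (ω = 1 ∨ ω = -1) →
        (∀ g, χ.1 (-g) = ω * χ.1 g) → ((θ T.z : ℂˣ) : ℂ) = ω → fcoef (resCT C χ.1) θ = k) ∧
      (e ≠ 0 → IsCuspidalSL χ.1 ∧ ∃ k : ℕ, (k = 1 ∨ k = 2) ∧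
          χ.1 1 = k * (((Fintype.card F : ℂ) - 1) / 2) ∧
          (∀ g, χ.1 (-g) = ((θ T.z : ℂˣ) : ℂ) * χ.1 g) ∧ fcoef (resCT C χ.1) θ + 1 = k) := by
    intro χ
    by_cases hc : IsCuspidalSL χ.1
    · obtain ⟨e, he, hp, hq⟩ := T.tdefect hodd D χ.2 hc θ
      exact ⟨e, by rw [if_pos hc]; exact he, fun _ => hp, fun h => ⟨hc, hq h⟩⟩
    · exact ⟨0, by rw [if_neg hc]; simp, fun h => absurd h hc, fun h => absurd rfl h⟩
  choose E hE hP hQ using h1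
  refine ⟨E, ?_, hP, hQ⟩
  rw [Finset.sum_congr rfl fun χ _ => hE χ]
  have h3 : ∀ χ : Cfsg.IrrCharacter (Matrix.SpecialLinearGroup (Fin 2) F),
      (if IsCuspidalSL χ.1 then
        (χ.1 1 ^ 2 + ((θ T.z : ℂˣ) : ℂ) * (χ.1 (-1) * conj (χ.1 1))) /
          ((Fintype.card F : ℂ) - 1) - fcoef (resCT C χ.1) θ * conj (χ.1 1) else 0) =
      (if IsCuspidalSL χ.1 then
        (χ.1 1 ^ 2 + ((θ T.z : ℂˣ) : ℂ) * (χ.1 (-1) * conj (χ.1 1))) /
          ((Fintype.card F : ℂ) - 1) else 0) -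
      (if IsCuspidalSL χ.1 then fcoef (resCT C χ.1) θ * conj (χ.1 1) else 0) := by
    intro χ
    by_cases hc : IsCuspidalSL χ.1
    · simp only [if_pos hc]
    · simp only [if_neg hc]; ring
  rw [Finset.sum_congr rfl fun χ _ => h3 χ, Finset.sum_sub_distrib, sum_cuspidal_B hodd D,
    T.sum_cuspidal_fcoef hodd D θ]
  by_cases hθ : θ = 1
  · rw [if_pos hθ, if_pos hθ]; ring
  · rw [if_neg hθ, if_neg hθ]; ring

/-- The trivial character of the torus occurs with full multiplicity in the cuspidal characters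
which are trivial on the centre. -/
theorem IsNSTorus.trivial_mult (T : IsNSTorus C) (hodd : Odd (Fintype.card F))
    (D : QuadDecomp α₀ ξ₁ ξ₂) {χ : Matrix.SpecialLinearGroup (Fin 2) F → ℂ}
    (hirr : Cfsg.IsIrrCharacter (Matrix.SpecialLinearGroup (Fin 2) F) χ) (hc : IsCuspidalSL χ)
    (k : ℕ) (hk : χ 1 = k * (((Fintype.card F : ℂ) - 1) / 2)) (hω : ∀ g, χ (-g) = χ g) :
    fcoef (resCT C χ) 1 = k := by
  obtain ⟨E, hE, hP, -⟩ := T.tdefect_family hodd D (1 : C →* ℂˣ)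
  rw [if_pos rfl] at hE
  have h4 : ∑ χ' : Cfsg.IrrCharacter (Matrix.SpecialLinearGroup (Fin 2) F), E χ' = 0 := by
    exact_mod_cast hE
  have h5 := (Finset.sum_eq_zero_iff.mp h4) ⟨χ, hirr⟩ (Finset.mem_univ _)
  exact hP ⟨χ, hirr⟩ hc h5 k 1 hk (Or.inl rfl) (fun g => by rw [one_mul]; exact hω g) (by simp)

/-- Every non-trivial character of the torus is missing from some cuspidal character. -/
theorem IsNSTorus.exists_cuspidal (T : IsNSTorus C) (hodd : Odd (Fintype.card F))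
    (D : QuadDecomp α₀ ξ₁ ξ₂) (θ : C →* ℂˣ) (hθ : θ ≠ 1) :
    ∃ χ : Matrix.SpecialLinearGroup (Fin 2) F → ℂ,
      Cfsg.IsIrrCharacter (Matrix.SpecialLinearGroup (Fin 2) F) χ ∧ IsCuspidalSL χ ∧
      ∃ k : ℕ, (k = 1 ∨ k = 2) ∧ χ 1 = k * (((Fintype.card F : ℂ) - 1) / 2) ∧
        (∀ g, χ (-g) = ((θ T.z : ℂˣ) : ℂ) * χ g) ∧ fcoef (resCT C χ) θ + 1 = k := by
  have hq1 := card_sub_one_ne_zero (F := F)
  obtain ⟨E, hE, -, hQ⟩ := T.tdefect_family hodd D θ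
  rw [if_neg hθ] at hE
  have hex : ∃ χ : Cfsg.IrrCharacter (Matrix.SpecialLinearGroup (Fin 2) F), E χ ≠ 0 := by
    by_contra hcon
    push Not at hcon
    rw [Finset.sum_congr rfl fun χ _ => by rw [hcon χ, Nat.cast_zero], Finset.sum_const_zero] at hE
    exact hq1 hE.symm
  obtain ⟨χ, hχ⟩ := hex
  obtain ⟨hc, k, hk12, hk, hω, hf⟩ := hQ χ hχ
  exact ⟨χ.1, χ.2, hc, k, hk12, hk, hω, hf⟩

open Classical in
omit [Fintype (Matrix.SpecialLinearGroup (Fin 2) F)] [Fintype (MulChar F ℂ)]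
  [Fintype (Cfsg.IrrCharacter (Matrix.SpecialLinearGroup (Fin 2) F))] in
/-- The characters of the torus with a given value at `-1` add up to zero off the centre. -/
theorem IsNSTorus.sum_hom_sign (T : IsNSTorus C) {ω : ℂ} (hω : ω = 1 ∨ ω = -1)
    (c : C) (hc1 : c ≠ 1) (hcz : c ≠ T.z) :
    ∑ θ : C →* ℂˣ, (if ((θ T.z : ℂˣ) : ℂ) = ω then ((θ c : ℂˣ) : ℂ) else 0) = 0 := by
  have hne : (1 : ℂ) ≠ -1 := by norm_num
  have hzc : T.z * c ≠ 1 := by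
    intro h
    apply hcz
    calc c = (T.z * T.z) * c := by rw [T.z_mul_z, one_mul]
      _ = T.z * (T.z * c) := mul_assoc _ _ _
      _ = T.z := by rw [h, mul_one]
  have h1 : ∀ θ : C →* ℂˣ, (if ((θ T.z : ℂˣ) : ℂ) = ω then ((θ c : ℂˣ) : ℂ) else 0) =
      1 / 2 * ((θ c : ℂˣ) : ℂ) + ω / 2 * ((θ (T.z * c) : ℂˣ) : ℂ) := by
    intro θ
    rw [map_mul, Units.val_mul]
    rcases T.hom_z θ with h | h <;> rcases hω with rfl | rfl <;> rw [h]
    · rw [if_pos rfl]; ring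
    · rw [if_neg hne]; ring
    · rw [if_neg (Ne.symm hne)]; ring
    · rw [if_pos rfl]; ring
  rw [Finset.sum_congr rfl fun θ _ => h1 θ, Finset.sum_add_distrib, ← Finset.mul_sum,
    ← Finset.mul_sum, sum_hom_units_apply T.comm, sum_hom_units_apply T.comm, if_neg hc1,
    if_neg hzc]
  ring

open Classical in
/-- The restriction of a cuspidal character to the torus. -/
theorem IsNSTorus.res_cuspidal (T : IsNSTorus C) (hodd : Odd (Fintype.card F))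
    (D : QuadDecomp α₀ ξ₁ ξ₂) {χ : Matrix.SpecialLinearGroup (Fin 2) F → ℂ}
    (hirr : Cfsg.IsIrrCharacter (Matrix.SpecialLinearGroup (Fin 2) F) χ) (hc : IsCuspidalSL χ)
    (k : ℕ) (ω : ℂ) (hk : χ 1 = k * (((Fintype.card F : ℂ) - 1) / 2)) (hω1 : ω = 1 ∨ ω = -1)
    (hω : ∀ g, χ (-g) = ω * χ g) :
    (∑ θ : C →* ℂˣ, (if (((θ T.z : ℂˣ) : ℂ) = ω ∧ fcoef (resCT C χ) θ + 1 = k) then (1 : ℂ) else 0)
      = k) ∧
    ∀ c : C, c ≠ 1 → c ≠ T.z → χ c.1 = - ∑ θ : C →* ℂˣ,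
      (if (((θ T.z : ℂˣ) : ℂ) = ω ∧ fcoef (resCT C χ) θ + 1 = k) then ((θ c : ℂˣ) : ℂ) else 0) := by
  have h2 := two_ne_zero_of_odd hodd
  have hform : ∀ θ : C →* ℂˣ, fcoef (resCT C χ) θ =
      (if ((θ T.z : ℂˣ) : ℂ) = ω then (k : ℂ) else 0) -
      (if (((θ T.z : ℂˣ) : ℂ) = ω ∧ fcoef (resCT C χ) θ + 1 = k) then (1 : ℂ) else 0) := by
    intro θ
    obtain ⟨n, hn, hn0, hn1⟩ := T.pattern hodd D hirr hc k ω hk hω1 hω θ
    by_cases hθ : ((θ T.z : ℂˣ) : ℂ) = ω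
    · rcases hn1 hθ with h | h
      · have hne : ¬ (((θ T.z : ℂˣ) : ℂ) = ω ∧ fcoef (resCT C χ) θ + 1 = k) := by
          rintro ⟨-, h'⟩
          rw [hn, h] at h'
          have : (k : ℂ) + 1 = k + 0 := by rw [h', add_zero]
          exact one_ne_zero (add_left_cancel this)
        rw [if_pos hθ, if_neg hne, hn, h]; ring
      · have hpos : (((θ T.z : ℂˣ) : ℂ) = ω ∧ fcoef (resCT C χ) θ + 1 = k) :=
          ⟨hθ, by rw [hn, ← h]; push_cast; ring⟩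
        rw [if_pos hθ, if_pos hpos, hn, ← h]; push_cast; ring
    · rw [if_neg hθ, if_neg (fun h => hθ h.1), hn, hn0 hθ]; simp
  have hkk : ∀ θ : C →* ℂˣ, (if ((θ T.z : ℂˣ) : ℂ) = ω then (k : ℂ) else 0) =
      k * (if ((θ T.z : ℂˣ) : ℂ) = ω then (1 : ℂ) else 0) := by
    intro θ
    split_ifs <;> simp
  constructor
  · have hsum := fourier_inversion T.comm (resCT C χ) 1
    simp only [map_one, Units.val_one, mul_one] at hsum
    have hcount := T.sum_hom_z h2 hω1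
    have h3 : ∀ θ : C →* ℂˣ,
        (if (((θ T.z : ℂˣ) : ℂ) = ω ∧ fcoef (resCT C χ) θ + 1 = k) then (1 : ℂ) else 0) =
        k * (if ((θ T.z : ℂˣ) : ℂ) = ω then (1 : ℂ) else 0) - fcoef (resCT C χ) θ := by
      intro θ
      rw [← hkk θ]
      linear_combination (hform θ)
    rw [Finset.sum_congr rfl fun θ _ => h3 θ, Finset.sum_sub_distrib, ← Finset.mul_sum, hcount, hsum]
    show (k : ℂ) * (((Fintype.card F : ℂ) + 1) / 2) - χ 1 = k
    rw [hk]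
    ring
  · intro c hc1 hcz
    have hinv := fourier_inversion T.comm (resCT C χ) c
    have h4 : ∀ θ : C →* ℂˣ, fcoef (resCT C χ) θ * ((θ c : ℂˣ) : ℂ) =
        k * (if ((θ T.z : ℂˣ) : ℂ) = ω then ((θ c : ℂˣ) : ℂ) else 0) -
        (if (((θ T.z : ℂˣ) : ℂ) = ω ∧ fcoef (resCT C χ) θ + 1 = k) then ((θ c : ℂˣ) : ℂ) else 0) := by
      intro θ
      calc fcoef (resCT C χ) θ * ((θ c : ℂˣ) : ℂ) =
          ((if ((θ T.z : ℂˣ) : ℂ) = ω then (k : ℂ) else 0) -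
            (if (((θ T.z : ℂˣ) : ℂ) = ω ∧ fcoef (resCT C χ) θ + 1 = k) then (1 : ℂ) else 0)) *
              ((θ c : ℂˣ) : ℂ) := by rw [← hform θ]
        _ = _ := by split_ifs <;> ring
    rw [Finset.sum_congr rfl fun θ _ => h4 θ, Finset.sum_sub_distrib, ← Finset.mul_sum,
      T.sum_hom_sign hω1 c hc1 hcz] at hinv
    show χ c.1 = _
    have : resCT C χ c = χ c.1 := rfl
    rw [← this, ← hinv]
    ring

omit [Fintype (Matrix.SpecialLinearGroup (Fin 2) F)] [Fintype (MulChar F ℂ)]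
  [Fintype (Cfsg.IrrCharacter (Matrix.SpecialLinearGroup (Fin 2) F))] [Fintype C]
  [Fintype (C →* ℂˣ)] in
/-- Class functions are invariant under inversion on the torus. -/
theorem IsNSTorus.apply_inv (T : IsNSTorus C) (hodd : Odd (Fintype.card F))
    {χ : Matrix.SpecialLinearGroup (Fin 2) F → ℂ}
    (hχ : Cfsg.IsClassFunction (Matrix.SpecialLinearGroup (Fin 2) F) χ) (c : C) :
    resCT C χ c⁻¹ = resCT C χ c := by
  by_cases hc1 : c = 1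
  · rw [hc1, inv_one]
  · by_cases hcz : c = T.z
    · rw [hcz, inv_eq_of_mul_eq_one_right T.z_mul_z]
    · have hell : Elliptic (c.1 : Matrix (Fin 2) (Fin 2) F) :=
        T.elliptic c.1 c.2 (fun h => hc1 (Subtype.ext h)) (fun h => hcz (Subtype.ext h))
      show χ ((c⁻¹ : C) : Matrix.SpecialLinearGroup (Fin 2) F) = χ c.1
      rw [Subgroup.coe_inv]
      have htr : ((c.1⁻¹ : Matrix.SpecialLinearGroup (Fin 2) F) : Matrix (Fin 2) (Fin 2) F).trace =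
          (c.1 : Matrix (Fin 2) (Fin 2) F).trace := by
        rw [Matrix.trace_fin_two, Matrix.trace_fin_two, Cfsg.Agent.H65.SL2.inv00,
          Cfsg.Agent.H65.SL2.inv11, add_comm]
      refine Cfsg.Agent.H4.isClassFunction_iff_isConj.mp hχ _ _
        (SL2_isConj_of_trace_odd hodd _ _ htr ?_)
      rw [htr]
      intro h4
      exact not_elliptic_of_trace_sq (two_ne_zero_of_odd hodd) c.1.2 h4 hell

omit [Fintype (Matrix.SpecialLinearGroup (Fin 2) F)] [Fintype (MulChar F ℂ)]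
  [Fintype (Cfsg.IrrCharacter (Matrix.SpecialLinearGroup (Fin 2) F))] [Fintype C]
  [Fintype (C →* ℂˣ)] in
theorem IsNSTorus.inv_hom_z (T : IsNSTorus C) (θ : C →* ℂˣ) :
    (((θ⁻¹ : C →* ℂˣ) T.z : ℂˣ) : ℂ) = ((θ T.z : ℂˣ) : ℂ) := by
  rw [MonoidHom.inv_apply, Units.val_inv_eq_inv_val]
  rcases T.hom_z θ with h | h <;> rw [h] <;> norm_num

open Classical in
/-- The values on the torus of the cuspidal characters of degree `(q - 1) / 2`. -/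
theorem IsNSTorus.half_value (T : IsNSTorus C) (hodd : Odd (Fintype.card F))
    (D : QuadDecomp α₀ ξ₁ ξ₂) {χ : Matrix.SpecialLinearGroup (Fin 2) F → ℂ}
    (hirr : Cfsg.IsIrrCharacter (Matrix.SpecialLinearGroup (Fin 2) F) χ) (hc : IsCuspidalSL χ)
    (h1 : χ 1 = ((Fintype.card F : ℂ) - 1) / 2) (c : C) (hc1 : c ≠ 1) (hcz : c ≠ T.z) :
    (c ^ ((Fintype.card F + 1) / 2) = 1 → χ c.1 = -1) ∧
      (c ^ ((Fintype.card F + 1) / 2) ≠ 1 → χ c.1 = 1) := by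
  have h2 := two_ne_zero_of_odd hodd
  obtain ⟨ω, hω1, hω⟩ := irr_neg hirr
  have hk : χ 1 = ((1 : ℕ) : ℂ) * (((Fintype.card F : ℂ) - 1) / 2) := by rw [h1]; push_cast; ring
  obtain ⟨hcount', hval⟩ := T.res_cuspidal hodd D hirr hc 1 ω hk hω1 hω
  have hcount : ∑ θ' : C →* ℂˣ, (if (((θ' T.z : ℂˣ) : ℂ) = ω ∧
      fcoef (resCT C χ) θ' + 1 = ((1 : ℕ) : ℂ)) then (1 : ℂ) else 0) = 1 := by
    rw [hcount', Nat.cast_one]
  obtain ⟨θm, hθm, hsum⟩ := exists_of_sum_indicator _ hcount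
  have hcf := Cfsg.Agent.H4.isClassFunction_of_isCharacter (Cfsg.Agent.H4.isCharacter_of_isIrrCharacter hirr)
  have hPinv : ((((θm⁻¹ : C →* ℂˣ) T.z : ℂˣ) : ℂ) = ω ∧
      fcoef (resCT C χ) θm⁻¹ + 1 = ((1 : ℕ) : ℂ)) :=
    ⟨by rw [T.inv_hom_z]; exact hθm.1, by rw [fcoef_inv _ (fun c => T.apply_inv hodd hcf c)]; exact hθm.2⟩
  have hinv : θm⁻¹ = θm := unique_of_sum_indicator _ hcount _ _ hPinv hθm
  have hne1 : θm ≠ 1 := by
    rintro rfl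
    have hω' : ω = 1 := by rw [← hθm.1]; simp
    subst hω'
    have := T.trivial_mult hodd D hirr hc 1 hk (fun g => by rw [hω g, one_mul])
    have h' := hθm.2
    rw [this] at h'
    norm_num at h'
  haveI := T.cyclic
  have hN : Nat.card C = 2 * ((Fintype.card F + 1) / 2) := by
    rw [T.card]; obtain ⟨m, hm⟩ := hodd; omega
  have hq := quad_hom_apply θm hinv hne1 _ hN c
  have hχc : χ c.1 = - ((θm c : ℂˣ) : ℂ) := by rw [hval c hc1 hcz, hsum]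
  constructor
  · intro hpow; rw [hχc, hq.mpr hpow]
  · intro hpow
    rcases quad_hom_sq θm hinv c with h | h
    · exact absurd (hq.mp h) hpow
    · rw [hχc, h]; norm_num

open Classical in
/-- The values on the torus of a cuspidal character of degree `q - 1`, given one of its two
missing characters. -/
theorem IsNSTorus.full_value (T : IsNSTorus C) (hodd : Odd (Fintype.card F))
    (D : QuadDecomp α₀ ξ₁ ξ₂) {χ : Matrix.SpecialLinearGroup (Fin 2) F → ℂ}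
    (hirr : Cfsg.IsIrrCharacter (Matrix.SpecialLinearGroup (Fin 2) F) χ) (hc : IsCuspidalSL χ)
    (h1 : χ 1 = (Fintype.card F : ℂ) - 1) (θ : C →* ℂˣ)
    (hω : ∀ g, χ (-g) = ((θ T.z : ℂˣ) : ℂ) * χ g) (hθ : fcoef (resCT C χ) θ + 1 = 2)
    (hne : θ⁻¹ ≠ θ) (c : C) (hc1 : c ≠ 1) (hcz : c ≠ T.z) :
    χ c.1 = -(((θ c : ℂˣ) : ℂ) + (((θ c)⁻¹ : ℂˣ) : ℂ)) := by
  have hk : χ 1 = ((2 : ℕ) : ℂ) * (((Fintype.card F : ℂ) - 1) / 2) := by rw [h1]; push_cast; ring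
  obtain ⟨hcount, hval⟩ := T.res_cuspidal hodd D hirr hc 2 _ hk (T.hom_z θ) hω
  have hcount' : ∑ θ' : C →* ℂˣ, (if (((θ' T.z : ℂˣ) : ℂ) = ((θ T.z : ℂˣ) : ℂ) ∧
      fcoef (resCT C χ) θ' + 1 = ((2 : ℕ) : ℂ)) then (1 : ℂ) else 0) = 2 := by
    rw [hcount]; norm_num
  have hcf := Cfsg.Agent.H4.isClassFunction_of_isCharacter (Cfsg.Agent.H4.isCharacter_of_isIrrCharacter hirr)
  have hP : (((θ T.z : ℂˣ) : ℂ) = ((θ T.z : ℂˣ) : ℂ) ∧ fcoef (resCT C χ) θ + 1 = ((2 : ℕ) : ℂ)) :=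
    ⟨rfl, by rw [hθ]; norm_num⟩
  have hPinv : ((((θ⁻¹ : C →* ℂˣ) T.z : ℂˣ) : ℂ) = ((θ T.z : ℂˣ) : ℂ) ∧
      fcoef (resCT C χ) θ⁻¹ + 1 = ((2 : ℕ) : ℂ)) :=
    ⟨T.inv_hom_z θ, by rw [fcoef_inv _ (fun c => T.apply_inv hodd hcf c)]; exact hP.2⟩
  rw [hval c hc1 hcz, sum_indicator_eq_pair _ hcount' θ θ⁻¹ hP hPinv (Ne.symm hne),
    MonoidHom.inv_apply]

open Classical in
/-- A cuspidal character of degree `q - 1` has a missing character of the torus which is not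
self-inverse. -/
theorem IsNSTorus.full_exists (T : IsNSTorus C) (hodd : Odd (Fintype.card F))
    (D : QuadDecomp α₀ ξ₁ ξ₂) {χ : Matrix.SpecialLinearGroup (Fin 2) F → ℂ}
    (hirr : Cfsg.IsIrrCharacter (Matrix.SpecialLinearGroup (Fin 2) F) χ) (hc : IsCuspidalSL χ)
    (h1 : χ 1 = (Fintype.card F : ℂ) - 1) :
    ∃ θ : C →* ℂˣ, θ⁻¹ ≠ θ ∧ (∀ g, χ (-g) = ((θ T.z : ℂˣ) : ℂ) * χ g) ∧
      fcoef (resCT C χ) θ + 1 = 2 := by
  obtain ⟨ω, hω1, hω⟩ := irr_neg hirr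
  have hk : χ 1 = ((2 : ℕ) : ℂ) * (((Fintype.card F : ℂ) - 1) / 2) := by rw [h1]; push_cast; ring
  obtain ⟨hcount, -⟩ := T.res_cuspidal hodd D hirr hc 2 ω hk hω1 hω
  have hcount' : ∑ θ' : C →* ℂˣ, (if (((θ' T.z : ℂˣ) : ℂ) = ω ∧
      fcoef (resCT C χ) θ' + 1 = ((2 : ℕ) : ℂ)) then (1 : ℂ) else 0) = 2 := by
    rw [hcount]; norm_num
  obtain ⟨a, b, hab, ha, hb⟩ := exists_pair_of_sum_indicator _ hcount'
  have key : ∀ θ : C →* ℂˣ, (((θ T.z : ℂˣ) : ℂ) = ω ∧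
      fcoef (resCT C χ) θ + 1 = ((2 : ℕ) : ℂ)) → θ ≠ 1 := by
    rintro θ hθ rfl
    have hω' : ω = 1 := by rw [← hθ.1]; simp
    subst hω'
    have := T.trivial_mult hodd D hirr hc 2 hk (fun g => by rw [hω g, one_mul])
    have h' := hθ.2
    rw [this] at h'
    norm_num at h'
  have fin : ∀ θ : C →* ℂˣ, (((θ T.z : ℂˣ) : ℂ) = ω ∧
      fcoef (resCT C χ) θ + 1 = ((2 : ℕ) : ℂ)) → θ⁻¹ ≠ θ →
      ∃ θ : C →* ℂˣ, θ⁻¹ ≠ θ ∧ (∀ g, χ (-g) = ((θ T.z : ℂˣ) : ℂ) * χ g) ∧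
        fcoef (resCT C χ) θ + 1 = 2 := by
    intro θ hθ hne
    refine ⟨θ, hne, ?_, ?_⟩
    · rw [hθ.1]; exact hω
    · rw [hθ.2]; norm_num
  by_cases ha' : a⁻¹ = a
  · by_cases hb' : b⁻¹ = b
    · exfalso
      haveI := T.cyclic
      have hN : Nat.card C = 2 * ((Fintype.card F + 1) / 2) := by
        rw [T.card]; obtain ⟨m, hm⟩ := hodd; omega
      exact hab (quad_hom_unique a b ha' hb' (key a ha) (key b hb) _ hN)
    · exact fin b hb hb'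
  · exact fin a ha ha'

open Classical in
/-- Every character of the torus which is not self-inverse is missing from a cuspidal character
of degree `q - 1`. -/
theorem IsNSTorus.exists_full (T : IsNSTorus C) (hodd : Odd (Fintype.card F))
    (D : QuadDecomp α₀ ξ₁ ξ₂) (θ : C →* ℂˣ) (hne : θ⁻¹ ≠ θ) :
    ∃ χ : Matrix.SpecialLinearGroup (Fin 2) F → ℂ,
      Cfsg.IsIrrCharacter (Matrix.SpecialLinearGroup (Fin 2) F) χ ∧ IsCuspidalSL χ ∧
      χ 1 = (Fintype.card F : ℂ) - 1 ∧ (∀ g, χ (-g) = ((θ T.z : ℂˣ) : ℂ) * χ g) ∧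
      ∀ c : C, c ≠ 1 → c ≠ T.z → χ c.1 = -(((θ c : ℂˣ) : ℂ) + (((θ c)⁻¹ : ℂˣ) : ℂ)) := by
  have hθ1 : θ ≠ 1 := by
    rintro rfl
    exact hne (by ext c; simp)
  obtain ⟨χ, hirr, hc, k, hk12, hk, hω, hf⟩ := T.exists_cuspidal hodd D θ hθ1
  have hcf := Cfsg.Agent.H4.isClassFunction_of_isCharacter (Cfsg.Agent.H4.isCharacter_of_isIrrCharacter hirr)
  rcases hk12 with rfl | rfl
  · exfalso
    obtain ⟨hcount', -⟩ := T.res_cuspidal hodd D hirr hc 1 _ hk (T.hom_z θ) hω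
    have hcount : ∑ θ' : C →* ℂˣ, (if (((θ' T.z : ℂˣ) : ℂ) = ((θ T.z : ℂˣ) : ℂ) ∧
        fcoef (resCT C χ) θ' + 1 = ((1 : ℕ) : ℂ)) then (1 : ℂ) else 0) = 1 := by
      rw [hcount', Nat.cast_one]
    have hP : (((θ T.z : ℂˣ) : ℂ) = ((θ T.z : ℂˣ) : ℂ) ∧ fcoef (resCT C χ) θ + 1 = ((1 : ℕ) : ℂ)) :=
      ⟨rfl, hf⟩
    have hPinv : ((((θ⁻¹ : C →* ℂˣ) T.z : ℂˣ) : ℂ) = ((θ T.z : ℂˣ) : ℂ) ∧
        fcoef (resCT C χ) θ⁻¹ + 1 = ((1 : ℕ) : ℂ)) :=
      ⟨T.inv_hom_z θ, by rw [fcoef_inv _ (fun c => T.apply_inv hodd hcf c)]; exact hf⟩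
    exact hne (unique_of_sum_indicator _ hcount _ _ hPinv hP)
  · have h1 : χ 1 = (Fintype.card F : ℂ) - 1 := by rw [hk]; push_cast; ring
    refine ⟨χ, hirr, hc, h1, hω, fun c hc1 hcz => ?_⟩
    exact T.full_value hodd D hirr hc h1 θ hω (by rw [hf]; norm_num) hne c hc1 hcz

omit [Fintype C] [Fintype (C →* ℂˣ)] in
/-- A cuspidal character of degree `q - 1` takes the value `-1` at the non-trivial unipotent
elements. -/
theorem cuspidal_full_uSL (hodd : Odd (Fintype.card F)) (D : QuadDecomp α₀ ξ₁ ξ₂)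
    {χ : Matrix.SpecialLinearGroup (Fin 2) F → ℂ}
    (hirr : Cfsg.IsIrrCharacter (Matrix.SpecialLinearGroup (Fin 2) F) χ) (hc : IsCuspidalSL χ)
    (h1 : χ 1 = (Fintype.card F : ℂ) - 1) (b : F) (hb : b ≠ 0) : χ (uSL b) = -1 := by
  have hq1 := card_sub_one_ne_zero (F := F)
  obtain ⟨ψ, hψ⟩ := exists_primitive_addChar (F := F)
  obtain ⟨ε, hε⟩ := FiniteField.exists_nonsquare (ringChar_ne_two_of_odd hodd)
  have hcf := Cfsg.Agent.H4.isClassFunction_of_isCharacter (Cfsg.Agent.H4.isCharacter_of_isIrrCharacter hirr)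
  have hhalf : χ 1 ≠ ((Fintype.card F : ℂ) - 1) / 2 := by
    rw [h1]
    intro h
    apply hq1
    linear_combination 2 * h
  rcases cuspidal_values hodd D hψ hε hirr hc with ⟨ha, hb', -, -⟩ | ⟨-, -, h, -⟩ | ⟨-, -, h, -⟩
  · rw [uSL_eq_sum_mU hψ χ b]
    have h3 : ∀ c : F, mU (ψ.mulShift c) χ * ψ (c * b) = (1 : MulChar F ℂ) c * (ψ.mulShift b) c := by
      intro c
      rw [mU_mulShift_eq D.sq D.ne_one hε hcf c, mU_one_cuspidal hcf hc, ha, hb',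
        AddChar.mulShift_apply, mul_comm b c]
      simp
    rw [Finset.sum_congr rfl fun c _ => h3 c]
    exact sum_one_mulChar_addChar (isPrimitive_mulShift hψ hb)
  · exact absurd h hhalf
  · exact absurd h hhalf

end Cfsg.Agent.H44
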