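import Cfsg.Agent.H44.SL2TorusCharC

/-!
# Values of the characters of SL₂(F), `q` odd, at the semisimple elements (helper44)
-/

set_option autoImplicit false

namespace Cfsg.Agent.H44

open Matrix
open scoped ComplexConjugate

variable {F : Type*} [Field F] [Fintype F] [Fintype (Matrix.SpecialLinearGroup (Fin 2) F)]
  [Fintype (MulChar F ℂ)] [Fintype (Cfsg.IrrCharacter (Matrix.SpecialLinearGroup (Fin 2) F))]
  {α₀ : MulChar F ℂ} {ξ₁ ξ₂ : Matrix.SpecialLinearGroup (Fin 2) F → ℂ}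

open Classical in
omit [Fintype (MulChar F ℂ)] [Fintype (Cfsg.IrrCharacter (Matrix.SpecialLinearGroup (Fin 2) F))] in
/-- The two constituents of the principal series at the quadratic character, at the diagonal
elements. -/
theorem QuadDecomp.diag (D : QuadDecomp α₀ ξ₁ ξ₂) (g : Matrix.SpecialLinearGroup (Fin 2) F)
    (h01 : (g : Matrix (Fin 2) (Fin 2) F) 0 1 = 0) (h10 : (g : Matrix (Fin 2) (Fin 2) F) 1 0 = 0)
    (hsq : (g : Matrix (Fin 2) (Fin 2) F) 0 0 ^ 2 ≠ 1) :
    ξ₁ g = (if IsSquare ((g : Matrix (Fin 2) (Fin 2) F) 0 0) then (1 : ℂ) else -1) ∧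
      ξ₂ g = (if IsSquare ((g : Matrix (Fin 2) (Fin 2) F) 0 0) then (1 : ℂ) else -1) := by
  obtain ⟨ε, hε0, -, htw⟩ := D.twist
  have hd := Cfsg.Agent.H65.SL2.det_eq g
  rw [h01, h10] at hd
  have hd' : g.1 0 0 * g.1 1 1 = 1 := by linear_combination hd
  have ha0 : g.1 0 0 ≠ 0 := left_ne_zero_of_mul_eq_one hd'
  have hd0 : g.1 1 1 ≠ 0 := right_ne_zero_of_mul_eq_one hd'
  have hne : g.1 0 0 ≠ g.1 1 1 := by
    intro h
    apply hsq
    rw [pow_two]
    nth_rewrite 2 [h]
    exact hd'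
  have htwist : twistSL ε hε0 g = g := by
    apply Subtype.ext
    rw [coe_twistSL]
    ext i j
    fin_cases i <;> fin_cases j <;> simp [h01, h10]
  have h1 : ξ₂ g = ξ₁ g := by rw [htw g, htwist]
  have h2 := congrFun D.sum g
  rw [psSL_diag α₀ g h01 h10 hne, Pi.add_apply, h1, mulChar_quadratic_apply α₀ D.sq D.ne_one _ ha0,
    mulChar_quadratic_apply α₀ D.sq D.ne_one _ hd0] at h2
  have hiff : IsSquare (g.1 1 1) ↔ IsSquare (g.1 0 0) := by
    have : g.1 1 1 = (g.1 0 0)⁻¹ := eq_inv_of_mul_eq_one_right hd'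
    rw [this, isSquare_inv]
  have h3 : ξ₁ g = (if IsSquare (g.1 0 0) then (1 : ℂ) else -1) := by
    by_cases hs : IsSquare (g.1 0 0)
    · rw [if_pos hs, if_pos (hiff.mpr hs)] at h2
      rw [if_pos hs]
      linear_combination -(1 / 2 : ℂ) * h2
    · rw [if_neg hs, if_neg (fun h => hs (hiff.mp h))] at h2
      rw [if_neg hs]
      linear_combination -(1 / 2 : ℂ) * h2
  exact ⟨h3, h1.trans h3⟩

/-- The values at the elliptic elements of the cuspidal characters of degree `(q - 1) / 2`. -/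
theorem cuspidal_half_elliptic (hodd : Odd (Fintype.card F)) (D : QuadDecomp α₀ ξ₁ ξ₂)
    {χ : Matrix.SpecialLinearGroup (Fin 2) F → ℂ}
    (hirr : Cfsg.IsIrrCharacter (Matrix.SpecialLinearGroup (Fin 2) F) χ) (hc : IsCuspidalSL χ)
    (h1 : χ 1 = ((Fintype.card F : ℂ) - 1) / 2) (g : Matrix.SpecialLinearGroup (Fin 2) F)
    (hg : Elliptic (g : Matrix (Fin 2) (Fin 2) F)) :
    (g ^ ((Fintype.card F + 1) / 2) = 1 → χ g = -1) ∧
      (g ^ ((Fintype.card F + 1) / 2) ≠ 1 → χ g = 1) := by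
  classical
  have T := isNSTorus_centralizer hodd g hg
  letI : Fintype (Subgroup.centralizer ({g} : Set (Matrix.SpecialLinearGroup (Fin 2) F))) :=
    Fintype.ofFinite _
  letI : Fintype ((Subgroup.centralizer ({g} : Set (Matrix.SpecialLinearGroup (Fin 2) F))) →* ℂˣ) :=
    @Fintype.ofFinite _ (finite_hom_units T.comm)
  have hns := sl2_nonScalar_of_trace_sq g (elliptic_trace_sq hodd g hg)
  obtain ⟨hg1, hgm⟩ := sl2_ne_of_nonScalar g hns
  have h := T.half_value hodd D hirr hc h1 ⟨g, self_mem_centralizer_singleton g⟩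
    (fun h => hg1 (congrArg Subtype.val h)) (fun h => hgm (congrArg Subtype.val h))
  have hiff : (⟨g, self_mem_centralizer_singleton g⟩ :
      Subgroup.centralizer ({g} : Set (Matrix.SpecialLinearGroup (Fin 2) F))) ^
        ((Fintype.card F + 1) / 2) = 1 ↔ g ^ ((Fintype.card F + 1) / 2) = 1 := by
    rw [Subtype.ext_iff, Subgroup.coe_pow, Subgroup.coe_one]
  exact ⟨fun hp => h.1 (hiff.mpr hp), fun hp => h.2 (fun h' => hp (hiff.mp h'))⟩

/-- The irreducible characters of degree `q - 1`: they are cuspidal, except when `q = 3`. -/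
theorem SL2_odd_of_degree_sub_one' (hodd : Odd (Fintype.card F)) (D : QuadDecomp α₀ ξ₁ ξ₂)
    {χ : Matrix.SpecialLinearGroup (Fin 2) F → ℂ}
    (hirr : Cfsg.IsIrrCharacter (Matrix.SpecialLinearGroup (Fin 2) F) χ)
    (hd : χ 1 = (Fintype.card F : ℂ) - 1) :
    IsCuspidalSL χ ∨ (Fintype.card F = 3 ∧ (χ = ξ₁ ∨ χ = ξ₂)) := by
  have hq3 := three_le_card_of_odd hodd
  have key : ((Fintype.card F : ℂ) + 1) / 2 = (Fintype.card F : ℂ) - 1 → Fintype.card F = 3 := by
    intro h
    have h' : (Fintype.card F : ℂ) = ((3 : ℕ) : ℂ) := by push_cast; linear_combination (-2 : ℂ) * h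
    exact_mod_cast h'
  rcases SL2_odd_irr_cases hodd D hirr with h | h | ⟨α, hα, h⟩ | h | h | ⟨hc, -⟩
  · exact absurd (by rw [h] at hd; exact hd) (ne_of_lin (q := Fintype.card F) (-2) (4) (by push_cast; ring) (by omega) : (1 : ℂ) ≠ (Fintype.card F : ℂ) - 1)
  · exact absurd (by rw [h, stSL_one] at hd; exact hd) (ne_of_lin (q := Fintype.card F) (0) (2) (by push_cast; ring) (by omega) : (Fintype.card F : ℂ) ≠ (Fintype.card F : ℂ) - 1)
  · exact absurd (by rw [h, psSL_one] at hd; exact hd) (ne_of_lin (q := Fintype.card F) (0) (4) (by push_cast; ring) (by omega) : (Fintype.card F : ℂ) + 1 ≠ (Fintype.card F : ℂ) - 1)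
  · exact Or.inr ⟨key (by rw [h, D.deg₁] at hd; exact hd), Or.inl h⟩
  · exact Or.inr ⟨key (by rw [h, D.deg₂] at hd; exact hd), Or.inr h⟩
  · exact Or.inl hc

/-- A cuspidal character of degree `q - 1` at the non-trivial upper unitriangular elements. -/
theorem cuspidal_full_unitriangular (hodd : Odd (Fintype.card F)) (D : QuadDecomp α₀ ξ₁ ξ₂)
    {χ : Matrix.SpecialLinearGroup (Fin 2) F → ℂ}
    (hirr : Cfsg.IsIrrCharacter (Matrix.SpecialLinearGroup (Fin 2) F) χ) (hc : IsCuspidalSL χ)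
    (h1 : χ 1 = (Fintype.card F : ℂ) - 1) (g : Matrix.SpecialLinearGroup (Fin 2) F)
    (h10 : (g : Matrix (Fin 2) (Fin 2) F) 1 0 = 0) (h00 : (g : Matrix (Fin 2) (Fin 2) F) 0 0 = 1)
    (h11 : (g : Matrix (Fin 2) (Fin 2) F) 1 1 = 1) (h01 : (g : Matrix (Fin 2) (Fin 2) F) 0 1 ≠ 0) :
    χ g = -1 := by
  have hg : g = uSL ((g : Matrix (Fin 2) (Fin 2) F) 0 1) := by
    apply Subtype.ext
    rw [coe_uSL]
    ext i j
    fin_cases i <;> fin_cases j <;> simp [uMat, h10, h00, h11]
  rw [hg]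
  exact cuspidal_full_uSL hodd D hirr hc h1 _ h01

section Torus

variable {C : Subgroup (Matrix.SpecialLinearGroup (Fin 2) F)} [Fintype C] [Fintype (C →* ℂˣ)]

omit [Fintype F] [Fintype (Matrix.SpecialLinearGroup (Fin 2) F)] [Fintype (MulChar F ℂ)]
  [Fintype (Cfsg.IrrCharacter (Matrix.SpecialLinearGroup (Fin 2) F))] [Fintype C]
  [Fintype (C →* ℂˣ)] in
theorem hom_inv_ne_of_sq (θ : C →* ℂˣ) (h : ∃ c : C, θ c ^ 2 ≠ 1) : θ⁻¹ ≠ θ := by
  obtain ⟨c, hc⟩ := h
  intro hinv
  apply hc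
  have h2 : (θ c)⁻¹ = θ c := by
    have := DFunLike.congr_fun hinv c
    rwa [MonoidHom.inv_apply] at this
  rw [pow_two]
  nth_rewrite 1 [← h2]
  exact inv_mul_cancel _

omit [Fintype F] [Fintype (Matrix.SpecialLinearGroup (Fin 2) F)] [Fintype (MulChar F ℂ)]
  [Fintype (Cfsg.IrrCharacter (Matrix.SpecialLinearGroup (Fin 2) F))] [Fintype C]
  [Fintype (C →* ℂˣ)] in
theorem hom_sq_of_inv_ne (θ : C →* ℂˣ) (h : θ⁻¹ ≠ θ) : ∃ c : C, θ c ^ 2 ≠ 1 := by
  by_contra hcon
  push Not at hcon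
  apply h
  ext c
  rw [MonoidHom.inv_apply]
  have := hcon c
  rw [pow_two] at this
  rw [inv_eq_of_mul_eq_one_right this]

omit [Fintype (Matrix.SpecialLinearGroup (Fin 2) F)] [Fintype (MulChar F ℂ)]
  [Fintype (Cfsg.IrrCharacter (Matrix.SpecialLinearGroup (Fin 2) F))] [Fintype C]
  [Fintype (C →* ℂˣ)] in
theorem IsNSTorus.ne_of_not_mem_center (T : IsNSTorus C) (c : C)
    (hc : (c : Matrix.SpecialLinearGroup (Fin 2) F) ∉
      Subgroup.center (Matrix.SpecialLinearGroup (Fin 2) F)) : c ≠ 1 ∧ c ≠ T.z := by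
  constructor
  · rintro rfl
    exact hc (Subgroup.one_mem _)
  · rintro rfl
    exact hc negOne_mem_center

/-- The cuspidal character of degree `q - 1` attached to a character of the torus. -/
theorem IsNSTorus.full_forward (T : IsNSTorus C) (hodd : Odd (Fintype.card F))
    (D : QuadDecomp α₀ ξ₁ ξ₂) (θ : C →* ℂˣ) (hθ : ∃ c : C, θ c ^ 2 ≠ 1) :
    ∃ χ : Matrix.SpecialLinearGroup (Fin 2) F → ℂ,
      Cfsg.IsIrrCharacter (Matrix.SpecialLinearGroup (Fin 2) F) χ ∧
      χ 1 = (Fintype.card F : ℂ) - 1 ∧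
      (∀ c : C, (c : Matrix.SpecialLinearGroup (Fin 2) F) ∉
        Subgroup.center (Matrix.SpecialLinearGroup (Fin 2) F) →
          χ c = -((θ c).val + (θ c)⁻¹.val)) ∧
      (∀ c : C, (c : Matrix.SpecialLinearGroup (Fin 2) F) ∈
        Subgroup.center (Matrix.SpecialLinearGroup (Fin 2) F) →
          ∀ g : Matrix.SpecialLinearGroup (Fin 2) F,
            χ ((c : Matrix.SpecialLinearGroup (Fin 2) F) * g) = (θ c).val * χ g) ∧
      (∀ g : Matrix.SpecialLinearGroup (Fin 2) F, (g : Matrix (Fin 2) (Fin 2) F) 0 1 = 0 →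
        (g : Matrix (Fin 2) (Fin 2) F) 1 0 = 0 → (g : Matrix (Fin 2) (Fin 2) F) 0 0 ^ 2 ≠ 1 →
          χ g = 0) ∧
      (∀ g : Matrix.SpecialLinearGroup (Fin 2) F, (g : Matrix (Fin 2) (Fin 2) F) 1 0 = 0 →
        (g : Matrix (Fin 2) (Fin 2) F) 0 0 = 1 → (g : Matrix (Fin 2) (Fin 2) F) 1 1 = 1 →
          (g : Matrix (Fin 2) (Fin 2) F) 0 1 ≠ 0 → χ g = -1) := by
  obtain ⟨χ, hirr, hc, h1, hω, hval⟩ := T.exists_full hodd D θ (hom_inv_ne_of_sq θ hθ)
  have hcf := Cfsg.Agent.H4.isClassFunction_of_isCharacter (Cfsg.Agent.H4.isCharacter_of_isIrrCharacter hirr)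
  refine ⟨χ, hirr, h1, ?_, ?_, ?_, ?_⟩
  · intro c hcc
    obtain ⟨hc1, hcz⟩ := T.ne_of_not_mem_center c hcc
    exact hval c hc1 hcz
  · intro c hcc g
    rcases (mem_center_SL2 _).mp hcc with h | h
    · have : c = 1 := Subtype.ext h
      rw [this]
      simp
    · have : c = T.z := Subtype.ext h
      rw [this]
      show χ ((-1 : Matrix.SpecialLinearGroup (Fin 2) F) * g) = _
      rw [neg_mul, one_mul]
      exact hω g
  · intro g h01 h10 hsq
    exact cuspidalSL_diag_odd hodd hcf hc g h01 h10 hsq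
  · intro g h10 h00 h11 h01
    exact cuspidal_full_unitriangular hodd D hirr hc h1 g h10 h00 h11 h01

open Classical in
/-- Every irreducible character of degree `q - 1` comes from a character of the torus. -/
theorem IsNSTorus.full_converse (T : IsNSTorus C) (hodd : Odd (Fintype.card F))
    (D : QuadDecomp α₀ ξ₁ ξ₂) {χ : Matrix.SpecialLinearGroup (Fin 2) F → ℂ}
    (hirr : Cfsg.IsIrrCharacter (Matrix.SpecialLinearGroup (Fin 2) F) χ)
    (h1 : χ 1 = (Fintype.card F : ℂ) - 1) :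
    ∃ θ : C →* ℂˣ, (∃ c : C, θ c ^ 2 ≠ 1) ∧
      ∀ c : C, (c : Matrix.SpecialLinearGroup (Fin 2) F) ∉
        Subgroup.center (Matrix.SpecialLinearGroup (Fin 2) F) →
          χ c = -((θ c).val + (θ c)⁻¹.val) := by
  have h2 := two_ne_zero_of_odd hodd
  rcases SL2_odd_of_degree_sub_one' hodd D hirr h1 with hc | ⟨hq3, hχ⟩
  · obtain ⟨θ, hne, hω, hf⟩ := T.full_exists hodd D hirr hc h1
    refine ⟨θ, hom_sq_of_inv_ne θ hne, fun c hcc => ?_⟩
    obtain ⟨hc1, hcz⟩ := T.ne_of_not_mem_center c hcc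
    exact T.full_value hodd D hirr hc h1 θ hω hf hne c hc1 hcz
  · -- `q = 3`: the two characters of degree `2` in the principal series
    obtain ⟨φ, hφ⟩ := exists_hom_units_ne_one T.comm (T.z_ne_one h2)
    have hφz : ((φ T.z : ℂˣ) : ℂ) = -1 := by
      rcases T.hom_z φ with h | h
      · exact absurd (Units.ext (by rw [h, Units.val_one])) hφ
      · exact h
    have h3 : (3 : F) = 0 := by
      have := Nat.cast_card_eq_zero F
      rw [hq3] at this
      exact_mod_cast this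
    have hsq : ∀ c : C, (c : Matrix.SpecialLinearGroup (Fin 2) F) ∉
        Subgroup.center (Matrix.SpecialLinearGroup (Fin 2) F) →
        Elliptic (c.1 : Matrix (Fin 2) (Fin 2) F) ∧ ((φ c : ℂˣ) : ℂ) * ((φ c : ℂˣ) : ℂ) = -1 := by
      intro c hcc
      obtain ⟨hc1, hcz⟩ := T.ne_of_not_mem_center c hcc
      have hell : Elliptic (c.1 : Matrix (Fin 2) (Fin 2) F) :=
        T.elliptic c.1 c.2 (fun h => hc1 (Subtype.ext h)) (fun h => hcz (Subtype.ext h))
      refine ⟨hell, ?_⟩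
      have ht := elliptic_trace_sq hodd c.1 hell
      have ht0 : c.1.1 0 0 + c.1.1 1 1 = 0 := by
        have hpow := FiniteField.pow_card (c.1.1 0 0 + c.1.1 1 1)
        rw [hq3] at hpow
        have h5 : (c.1.1 0 0 + c.1.1 1 1) * ((c.1.1 0 0 + c.1.1 1 1) ^ 2 - 1) = 0 := by
          linear_combination hpow
        rcases mul_eq_zero.mp h5 with h | h
        · exact h
        · exfalso
          apply ht
          linear_combination h - h3
      have hcc' : c * c = T.z := Subtype.ext (sl2_mul_self_of_trace_zero ht0)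
      rw [← Units.val_mul, ← map_mul, hcc', hφz]
    have hex : ∃ c : C, (c : Matrix.SpecialLinearGroup (Fin 2) F) ∉
        Subgroup.center (Matrix.SpecialLinearGroup (Fin 2) F) := by
      by_contra hcon
      push Not at hcon
      have hall : ∀ c : C, c = 1 ∨ c = T.z := by
        intro c
        rcases (mem_center_SL2 _).mp (hcon c) with h | h
        · exact Or.inl (Subtype.ext h)
        · exact Or.inr (Subtype.ext h)
      have hsub : (Finset.univ : Finset C) ⊆ {1, T.z} := by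
        intro c _
        rw [Finset.mem_insert, Finset.mem_singleton]
        exact hall c
      have hle := Finset.card_le_card hsub
      have h4 : Fintype.card C = 4 := by
        rw [← Nat.card_eq_fintype_card, T.card, hq3]
      rw [Finset.card_univ, h4] at hle
      have := Finset.card_le_two (a := (1 : C)) (b := T.z)
      omega
    refine ⟨φ, ?_, fun c hcc => ?_⟩
    · obtain ⟨c, hcc⟩ := hex
      refine ⟨c, fun h => ?_⟩
      have h5 := (hsq c hcc).2
      rw [← Units.val_mul, ← pow_two, h, Units.val_one] at h5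
      norm_num at h5
    · obtain ⟨hell, h5⟩ := hsq c hcc
      have hzero : χ c.1 = 0 := by
        rcases hχ with rfl | rfl
        · exact (D.elliptic hodd _ hell).1
        · exact (D.elliptic hodd _ hell).2
      have hinv : (((φ c)⁻¹ : ℂˣ) : ℂ) = -((φ c : ℂˣ) : ℂ) := by
        rw [Units.val_inv_eq_inv_val]
        apply inv_eq_of_mul_eq_one_right
        linear_combination -h5
      show χ c.1 = _
      rw [hzero, hinv]
      ring

end Torus

end Cfsg.Agent.H44
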